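import Cfsg.Agent.LinearBound.Tools
import Cfsg.Agent.Suborbit.Cores
import Mathlib.GroupTheory.SchurZassenhaus
import Mathlib.GroupTheory.SpecificGroups.Cyclic
import Mathlib.RingTheory.IntegralDomain

/-!
# Abelian Hall subgroups of linear groups for the primes above the degree plus one
-/

set_option autoImplicit false
set_option linter.style.haveILetI false

open Cfsg

namespace Cfsg.Agent.LinearBound

universe u

/-- An abelian Hall subgroup for the primes greater than `N + 1`. -/
def IsAbHall (N : ℕ) {G : Type u} [Group G] (A : Subgroup G) : Prop :=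
  (∀ x ∈ A, ∀ y ∈ A, x * y = y * x) ∧
  (∀ q : ℕ, q.Prime → q ∣ Nat.card A → N + 1 < q) ∧
  ∀ q : ℕ, q.Prime → q ∣ A.index → q ≤ N + 1

variable {G : Type u} [Group G] {N : ℕ}

theorem IsAbHall.map_subtype {H : Subgroup G} {A : Subgroup H} (hA : IsAbHall N A)
    (hH : ∀ q : ℕ, q.Prime → q ∣ H.index → q ≤ N + 1) : IsAbHall N (A.map H.subtype) := by
  refine ⟨?_, fun q hq hd => hA.2.1 q hq ?_, fun q hq hd => ?_⟩
  · rintro _ ⟨x, hx, rfl⟩ _ ⟨y, hy, rfl⟩
    rw [← map_mul, ← map_mul, hA.1 x hx y hy]
  · rwa [Subgroup.card_map_of_injective H.subtype_injective] at hd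
  · rw [Subgroup.index_map_subtype] at hd
    rcases hq.dvd_mul.1 hd with h | h
    · exact hA.2.2 q hq h
    · exact hH q hq h

variable [Finite G]

theorem coprime_index {A : Subgroup G} {m : ℕ} (hA : IsAbHall N A)
    (hm : ∀ q : ℕ, q.Prime → q ∣ m → N + 1 < q) : m.Coprime A.index :=
  Nat.coprime_of_dvd fun q hq h1 h2 => absurd (hA.2.2 q hq h2) (not_le.2 (hm q hq h1))

/-- Orders of subgroups involving only large primes divide the order of the Hall subgroup. -/
theorem IsAbHall.card_dvd {A B : Subgroup G} (hA : IsAbHall N A)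
    (hB : ∀ q : ℕ, q.Prime → q ∣ Nat.card B → N + 1 < q) : Nat.card B ∣ Nat.card A :=
  (coprime_index hA hB).dvd_of_dvd_mul_right
    (by rw [Subgroup.card_mul_index]; exact Subgroup.card_subgroup_dvd_card B)

/-- One step of the induction through a nontrivial kernel. -/
theorem hall_or_quotient
    (ih : ∀ (H : Type u) [Group H] [Finite H], Nat.card H < Nat.card G → ∀ φ : H → ℂ,
      IsCharacter H φ → Faithful φ → charDegree φ ≤ N → ∃ A : Subgroup H, IsAbHall N A)
    {χ ψ : G → ℂ} (hχ : IsCharacter G χ) (hf : Faithful χ) (hn : charDegree χ ≤ N)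
    (hψ : IsCharacter G ψ) (hψn : charDegree ψ ≤ N) (K : Subgroup G) [K.Normal]
    (hK : ∀ g, g ∈ K ↔ ψ g = ψ 1) (hK1 : K ≠ ⊥) :
    (∃ A : Subgroup G, IsAbHall N A) ∨
      ((∀ a b : G, a * b * a⁻¹ * b⁻¹ ∈ K) ∧ ∀ q : ℕ, q.Prime → q ∣ K.index → N + 1 < q) := by
  obtain ⟨φ, hφ, hφψ⟩ := Char.isCharacter_exists_descend hψ K (fun k hk => (hK k).1 hk)
  have hφ1 : ψ 1 = φ 1 := hφψ 1
  have hφf : Faithful φ := by
    intro x hx
    induction x using QuotientGroup.induction_on with
    | H g => exact (QuotientGroup.eq_one_iff g).2 ((hK g).2 (by rw [hφψ, hx, hφ1]))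
  have hcard : Nat.card (G ⧸ K) < Nat.card G := by
    rw [Subgroup.card_eq_card_quotient_mul_card_subgroup K]
    exact lt_mul_of_one_lt_right Nat.card_pos ((Subgroup.one_lt_card_iff_ne_bot _).2 hK1)
  obtain ⟨B, hB⟩ := ih _ hcard φ hφ hφf (by simpa [charDegree, hφ1] using hψn)
  set M := B.comap (QuotientGroup.mk' K) with hM
  have hMi : M.index = B.index :=
    Subgroup.index_comap_of_surjective _ (QuotientGroup.mk'_surjective K)
  by_cases hMtop : M = ⊤
  · right
    have hBtop : B = ⊤ := Subgroup.comap_injective (QuotientGroup.mk'_surjective K)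
      (hMtop.trans (Subgroup.comap_top _).symm)
    refine ⟨fun a b => ?_, fun q hq hd => ?_⟩
    · rw [← QuotientGroup.eq_one_iff, QuotientGroup.mk_mul, QuotientGroup.mk_mul,
        QuotientGroup.mk_mul, QuotientGroup.mk_inv, QuotientGroup.mk_inv,
        hB.1 (a : G ⧸ K) (hBtop ▸ Subgroup.mem_top _) (b : G ⧸ K) (hBtop ▸ Subgroup.mem_top _),
        mul_inv_cancel_right, mul_inv_cancel]
    · refine hB.2.1 q hq ?_
      rw [hBtop, Subgroup.card_top]
      exact hd
  · left
    obtain ⟨A, hA⟩ := ih M (lt_of_le_of_ne (Subgroup.card_le_card_group M)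
        fun h => hMtop (Subgroup.eq_top_of_card_eq M h)) _
      (Char.isCharacter_restrict hχ M) (hf.res M) hn
    exact ⟨_, hA.map_subtype (fun q hq hd => hB.2.2 q hq (hMi ▸ hd))⟩

/-- The irreducible case of the induction. -/
theorem hall_of_irr
    (ih : ∀ (H : Type u) [Group H] [Finite H], Nat.card H < Nat.card G → ∀ φ : H → ℂ,
      IsCharacter H φ → Faithful φ → charDegree φ ≤ N → ∃ A : Subgroup H, IsAbHall N A)
    {χ : G → ℂ} (hχ : IsIrrCharacter G χ) (hf : Faithful χ) (hn : charDegree χ ≤ N) :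
    ∃ A : Subgroup G, IsAbHall N A := by
  classical
  by_contra hnone
  have hcG := Char.isCharacter_of_irr hχ
  have hn0 : 0 < charDegree χ := by
    obtain ⟨d, hd0, hd⟩ := Char.irr_one_pos hχ
    simpa [charDegree, hd] using hd0
  -- proper subgroups have Hall subgroups, so none has small index
  have hsub : ∀ H : Subgroup G, H ≠ ⊤ → ∃ A : Subgroup H, IsAbHall N A := fun H hH =>
    ih H (lt_of_le_of_ne (Subgroup.card_le_card_group H)
        fun h => hH (Subgroup.eq_top_of_card_eq H h)) _
      (Char.isCharacter_restrict hcG H) (hf.res H) hn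
  have htop : ∀ H : Subgroup G, (∀ q : ℕ, q.Prime → q ∣ H.index → q ≤ N + 1) → H = ⊤ := by
    intro H hH
    by_contra hne
    obtain ⟨A, hA⟩ := hsub H hne
    exact hnone ⟨_, hA.map_subtype hH⟩
  have hsmall : ∀ H : Subgroup G, H.index ≤ charDegree χ → H = ⊤ := by
    intro H hH
    refine top_le_iff.1 ((htop H.normalCore fun q hq hd => ?_) ▸ Subgroup.normalCore_le H)
    have := hq.dvd_factorial.1 (hd.trans (Suborbit.index_normalCore_dvd H))
    omega
  -- the kernel of the determinant
  set δ := (CharExt.detChar_isLin χ).toHom with hδ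
  set R := δ.ker with hR
  haveI : Finite δ.range := Finite.of_surjective _ δ.rangeRestrict_surjective
  have hQ : ∀ q : ℕ, q.Prime → q ∣ R.index → N + 1 < q := by
    intro q hq hd
    by_contra hle
    haveI := Fact.mk hq
    let pw : δ.range →* δ.range := powMonoidHom q
    have hsurj : Function.Surjective (pw : δ.range → δ.range) := by
      rw [← MonoidHom.range_eq_top]
      have hM := htop (pw.range.comap δ.rangeRestrict) fun r hr hrd => ?_
      · exact Subgroup.comap_injective δ.rangeRestrict_surjective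
          (hM.trans (Subgroup.comap_top _).symm)
      · rw [Subgroup.index_comap_of_surjective _ δ.rangeRestrict_surjective] at hrd
        have hpg : IsPGroup q (δ.range ⧸ pw.range) := by
          intro x
          induction x using QuotientGroup.induction_on with
          | H y =>
            refine ⟨1, ?_⟩
            rw [pow_one, ← QuotientGroup.mk_pow, QuotientGroup.eq_one_iff]
            exact ⟨y, rfl⟩
        obtain ⟨k, hk⟩ := hpg.exists_card_eq
        have : r ∣ q ^ k := by rw [← hk]; exact hrd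
        have := (Nat.prime_dvd_prime_iff_eq hr hq).1 (hr.dvd_of_dvd_pow this)
        omega
    rw [hR, Subgroup.index_ker] at hd
    obtain ⟨y, hy⟩ := exists_prime_orderOf_dvd_card' q hd
    have hinj := (Finite.injective_iff_surjective.2 hsurj)
    have h1 : pw y = pw 1 := by simp [pw, ← hy, pow_orderOf_eq_one]
    rw [hinj h1, orderOf_one] at hy
    exact hq.ne_one hy.symm
  by_cases hRtop : R = ⊤
  · -- the determinant is trivial
    have hdet : ∀ g, detChar χ g = 1 := fun g => by
      have h : δ g = 1 := (hRtop ▸ Subgroup.mem_top g : g ∈ R)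
      rw [← (CharExt.detChar_isLin χ).toHom_apply g, ← hδ, h, Units.val_one]
    -- an abelian subgroup involving only large primes, of largest order
    let T := {B : Subgroup G // (∀ x ∈ B, ∀ y ∈ B, x * y = y * x) ∧
      ∀ q : ℕ, q.Prime → q ∣ Nat.card B → N + 1 < q}
    haveI : Nonempty T := ⟨⟨⊥, fun x hx y hy => by
        rw [Subgroup.mem_bot.1 hx, Subgroup.mem_bot.1 hy], fun q hq hd => by
        rw [Subgroup.card_bot] at hd
        exact absurd (Nat.dvd_one.1 hd) hq.ne_one⟩⟩
    obtain ⟨⟨A, hAab, hApi⟩, hmax⟩ := Finite.exists_max fun B : T => Nat.card B.1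
    have hcent : ∀ a ∈ A, a ≠ 1 → ∀ B : Subgroup G,
        (∀ q : ℕ, q.Prime → q ∣ Nat.card B → N + 1 < q) →
        B ≤ Subgroup.centralizer ({a} : Set G) → Nat.card B ∣ Nat.card A := by
      intro a ha ha1 B hB hBC
      set C := Subgroup.centralizer ({a} : Set G) with hC
      have hCtop : C ≠ ⊤ := by
        intro h
        refine ha1 (eq_one_of_center hχ hf ?_ (hdet a) (Nat.coprime_of_dvd fun r hr h1 h2 => ?_))
        · rw [Subgroup.mem_center_iff]
          intro g
          exact Subgroup.mem_centralizer_singleton_iff.1 (h ▸ Subgroup.mem_top g : g ∈ C)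
        · have h3 := hApi r hr (h1.trans (Subgroup.orderOf_dvd_natCard _ ha))
          have := Nat.le_of_dvd hn0 h2
          omega
      obtain ⟨A₁, hA₁⟩ := hsub C hCtop
      have hsubB : ∀ D : Subgroup G, (∀ q : ℕ, q.Prime → q ∣ Nat.card D → N + 1 < q) → D ≤ C →
          Nat.card D ∣ Nat.card A₁ := by
        intro D hD hDC
        have hc := Nat.card_congr (Subgroup.subgroupOfEquivOfLe hDC).toEquiv
        rw [← hc] at hD ⊢
        exact hA₁.card_dvd hD
      have hAC : A ≤ C := fun x hx => Subgroup.mem_centralizer_singleton_iff.2 (hAab x hx a ha)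
      have hle := hmax ⟨A₁.map C.subtype, fun x hx y hy => by
          obtain ⟨x, hx', rfl⟩ := hx
          obtain ⟨y, hy', rfl⟩ := hy
          rw [← map_mul, ← map_mul, hA₁.1 x hx' y hy'],
        fun q hq hd => hA₁.2.1 q hq (by
          rwa [Subgroup.card_map_of_injective C.subtype_injective] at hd)⟩
      rw [Subgroup.card_map_of_injective C.subtype_injective] at hle
      have heq : Nat.card A = Nat.card A₁ :=
        le_antisymm (Nat.le_of_dvd Nat.card_pos (hsubB A hApi hAC)) hle
      exact heq ▸ hsubB B hB hBC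
    -- a Sylow subgroup of `A` is one of `G`
    have hfull : ∀ p : ℕ, p.Prime → p ∣ Nat.card A → ∀ P : Sylow p G,
        Nat.card (P : Subgroup G) ∣ Nat.card A := by
      intro p hp hpA P
      haveI := Fact.mk hp
      obtain ⟨⟨a, ha⟩, hord⟩ := exists_prime_orderOf_dvd_card' p hpA
      rw [Subgroup.orderOf_mk] at hord
      obtain ⟨P', hP'⟩ := (IsPGroup.of_card (p := p) (n := 1)
        (by rw [pow_one, Nat.card_zpowers, hord]) :
          IsPGroup p (Subgroup.zpowers a)).exists_le_sylow
      rw [show Nat.card (P : Subgroup G) = Nat.card (P' : Subgroup G) from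
        Nat.card_congr (P.equiv P').toEquiv]
      refine hcent a ha (fun h => hp.ne_one (by rw [← hord, h, orderOf_one])) _ (fun q hq hd => ?_)
        fun x hx => Subgroup.mem_centralizer_singleton_iff.2 ?_
      · obtain ⟨k, hk⟩ := P'.2.exists_card_eq
        rw [hk] at hd
        rw [(Nat.prime_dvd_prime_iff_eq hq hp).1 (hq.dvd_of_dvd_pow hd)]
        exact hApi p hp hpA
      · exact comm_of_pSubgroup hp hcG hf (by have := hApi p hp hpA; omega) P'.2 hx
          (hP' (Subgroup.mem_zpowers a))
    apply hnone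
    refine ⟨A, hAab, hApi, fun r hr hrA => ?_⟩
    by_contra hrN
    push Not at hrN
    haveI := Fact.mk hr
    have hrG : r ∣ Nat.card G := hrA.trans (Subgroup.index_dvd_card A)
    by_cases hra : r ∣ Nat.card A
    · obtain ⟨P⟩ := (inferInstance : Nonempty (Sylow r G))
      have h1 := (P.card_eq_multiplicity) ▸ hfull r hr hra P
      have h2 : r ^ ((Nat.card G).factorization r + 1) ∣ Nat.card G := by
        rw [pow_succ]
        exact (mul_dvd_mul h1 hrA).trans (Subgroup.card_mul_index A ▸ dvd_rfl)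
      exact Nat.pow_succ_factorization_not_dvd Nat.card_pos.ne' hr h2
    obtain ⟨z₀, hz₀⟩ := exists_prime_orderOf_dvd_card' r hrG
    have hzp : ∀ z : G, orderOf z = r →
        ∀ q : ℕ, q.Prime → q ∣ Nat.card (Subgroup.zpowers z) → N + 1 < q := by
      intro z hz q hq hd
      rw [Nat.card_zpowers, hz] at hd
      rw [(Nat.prime_dvd_prime_iff_eq hq hr).1 hd]
      exact hrN
    have hA1 : Nat.card A ≠ 1 := by
      intro h
      have hle := hmax ⟨Subgroup.zpowers z₀, fun x hx y hy => by
        obtain ⟨i, rfl⟩ := Subgroup.mem_zpowers_iff.1 hx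
        obtain ⟨j, rfl⟩ := Subgroup.mem_zpowers_iff.1 hy
        rw [← zpow_add, ← zpow_add, add_comm], hzp z₀ hz₀⟩
      simp only [Nat.card_zpowers, hz₀, h] at hle
      exact absurd hle (not_le.2 hr.one_lt)
    obtain ⟨p, hp, hpA⟩ := Nat.exists_prime_and_dvd hA1
    haveI := Fact.mk hp
    obtain ⟨x, z, hx, hz, hxz⟩ := exists_commuting_pair hχ hf hp hr
      (fun h => hra (h ▸ hpA)) (by have := hApi p hp hpA; omega) (by omega)
      (hpA.trans (Subgroup.card_subgroup_dvd_card A)) hrG
    obtain ⟨P, hP⟩ := (IsPGroup.of_card (p := p) (n := 1)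
      (by rw [pow_one, Nat.card_zpowers, hx]) : IsPGroup p (Subgroup.zpowers x)).exists_le_sylow
    obtain ⟨P₀⟩ := (inferInstance : Nonempty (Sylow p A))
    have hP₁ : IsPGroup p ((P₀ : Subgroup A).map A.subtype) := P₀.2.map _
    have hP₁i : ¬ p ∣ ((P₀ : Subgroup A).map A.subtype).index := by
      rw [Subgroup.index_map_subtype]
      intro h
      rcases hp.dvd_mul.1 h with h | h
      · exact P₀.not_dvd_index h
      · obtain ⟨Q⟩ := (inferInstance : Nonempty (Sylow p G))
        have h1 := (Q.card_eq_multiplicity) ▸ hfull p hp hpA Q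
        have h2 : p ^ ((Nat.card G).factorization p + 1) ∣ Nat.card G := by
          rw [pow_succ]
          exact (mul_dvd_mul h1 h).trans (Subgroup.card_mul_index A ▸ dvd_rfl)
        exact Nat.pow_succ_factorization_not_dvd Nat.card_pos.ne' hp h2
    obtain ⟨g, hg⟩ := MulAction.exists_smul_eq G P (hP₁.toSylow hP₁i)
    have hgx : MulAut.conj g x ∈ A := by
      have h1 : MulAut.conj g x ∈ ((g • P : Sylow p G) : Subgroup G) := by
        rw [Sylow.smul_def, Sylow.pointwise_smul_def]
        exact ⟨x, hP (Subgroup.mem_zpowers x), rfl⟩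
      rw [hg] at h1
      exact Subgroup.map_subtype_le _ h1
    have hord : orderOf (MulAut.conj g z) = r :=
      (orderOf_injective (MulAut.conj g).toMonoidHom (MulAut.conj g).injective z).trans hz
    have h1 := hcent _ hgx (fun h => hp.ne_one (by
        rw [← hx, ← orderOf_injective (MulAut.conj g).toMonoidHom (MulAut.conj g).injective x]
        exact orderOf_eq_one_iff.2 h))
      (Subgroup.zpowers (MulAut.conj g z)) (hzp _ hord)
      ((Subgroup.zpowers_le).2 (Subgroup.mem_centralizer_singleton_iff.2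
        (by rw [← map_mul, ← map_mul, hxz])))
    rw [Nat.card_zpowers, hord] at h1
    exact hra h1
  -- the determinant is nontrivial
  obtain ⟨A₀, hA₀⟩ := hsub R hRtop
  set A' := A₀.map R.subtype with hA'
  have hA'ab : ∀ x ∈ A', ∀ y ∈ A', x * y = y * x := by
    rintro _ ⟨x, hx, rfl⟩ _ ⟨y, hy, rfl⟩
    rw [← map_mul, ← map_mul, hA₀.1 x hx y hy]
  have hA'c : A' ≤ Subgroup.center G := by
    have key : ∀ (p : ℕ) [Fact p.Prime], p ∣ Nat.card A₀ → ∀ P : Sylow p A₀,
        ((P : Subgroup A₀).map A₀.subtype).map R.subtype ≤ Subgroup.center G := by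
      intro p hp hpA P
      have hPi : ¬ p ∣ ((P : Subgroup A₀).map A₀.subtype).index := by
        rw [Subgroup.index_map_subtype]
        intro h
        rcases hp.out.dvd_mul.1 h with h | h
        · exact P.not_dvd_index h
        · have := hA₀.2.1 p hp.out hpA
          have := hA₀.2.2 p hp.out h
          omega
      set P' := (P.2.map A₀.subtype).toSylow hPi with hP'
      set Q := (P' : Subgroup R).map R.subtype with hQdef
      have hfr := Sylow.normalizer_sup_eq_top P'
      rw [← hQdef] at hfr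
      have hQA : Q ≤ A' := Subgroup.map_mono (Subgroup.map_subtype_le _)
      set M := Subgroup.normalizer (Q : Set G) with hMdef
      have hA'M : A' ≤ M := by
        intro a ha
        refine Subgroup.centralizer_le_normalizer _ (Subgroup.mem_centralizer_iff.2 ?_)
        intro b hb
        exact hA'ab b (hQA hb) a ha
      have hMi : M.index = M.relIndex R := by
        have h1 : R.relIndex M = R.index := by
          rw [← Subgroup.relIndex_top_right R, ← hfr, Subgroup.relIndex_sup_right]
        have h2 := Subgroup.relIndex_mul_index (inf_le_left : M ⊓ R ≤ M)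
        have h3 := Subgroup.relIndex_mul_index (inf_le_right : M ⊓ R ≤ R)
        rw [Subgroup.inf_relIndex_left, h1] at h2
        rw [Subgroup.inf_relIndex_right, ← h2, mul_comm R.index] at h3
        exact (Nat.eq_of_mul_eq_mul_right (Nat.pos_of_ne_zero R.index_ne_zero_of_finite) h3).symm
      have hMtop : M = ⊤ := htop M fun q hq hd => by
        rw [hMi] at hd
        refine hA₀.2.2 q hq (hd.trans ?_)
        have h := Subgroup.relIndex_dvd_of_le_left R hA'M
        rwa [show A'.relIndex R = A₀.index by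
          rw [hA', Subgroup.relIndex, Subgroup.subgroupOf,
            Subgroup.comap_map_eq_self_of_injective R.subtype_injective]] at h
      haveI : Q.Normal := Subgroup.normalizer_eq_top_iff.1 hMtop
      exact normal_abelian_le_center (A := Q) hχ hf hsmall
        fun x hx y hy => hA'ab x (hQA hx) y (hQA hy)
    set Zc := ((Subgroup.center G).subgroupOf R).subgroupOf A₀ with hZc
    have hZtop : Zc = ⊤ := by
      rw [← Subgroup.index_eq_one]
      by_contra hne
      obtain ⟨p, hp, hpd⟩ := Nat.exists_prime_and_dvd hne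
      haveI := Fact.mk hp
      obtain ⟨P⟩ := (inferInstance : Nonempty (Sylow p A₀))
      have hle : (P : Subgroup A₀) ≤ Zc := fun x hx =>
        key p (hpd.trans (Subgroup.index_dvd_card Zc)) P ⟨_, ⟨x, hx, rfl⟩, rfl⟩
      exact P.not_dvd_index (hpd.trans (Subgroup.index_dvd_of_le hle))
    rintro _ ⟨x, hx, rfl⟩
    exact (hZtop ▸ Subgroup.mem_top (⟨x, hx⟩ : A₀) : (⟨x, hx⟩ : A₀) ∈ Zc)
  have hA₀c : ∀ a ∈ A₀, ∀ r : R, r * a = a * r := fun a ha r =>
    Subtype.ext (Subgroup.mem_center_iff.1 (hA'c (Subgroup.mem_map_of_mem _ ha)) r)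
  haveI : A₀.Normal := ⟨fun a ha r => by rw [hA₀c a ha r, mul_inv_cancel_right]; exact ha⟩
  obtain ⟨K₀, hK₀⟩ := Subgroup.exists_right_complement'_of_coprime (coprime_index hA₀ hA₀.2.1)
  have hKcard : Nat.card K₀ = A₀.index := by
    rw [← hK₀.symm.index_eq_card]
  have hdec : ∀ r : R, ∀ d : ℕ, r ^ d = 1 →
      ∃ a ∈ A₀, ∃ k ∈ K₀, r = a * k ∧ a ^ d = 1 ∧ k ^ d = 1 := by
    intro r d hd
    obtain ⟨⟨⟨a, ha⟩, ⟨k, hk⟩⟩, hak : a * k = r⟩ := hK₀.2 r
    have hc : Commute a k := (hA₀c a ha k).symm
    rw [← hak, hc.mul_pow] at hd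
    have h1 : a ^ d ∈ A₀ ⊓ K₀ :=
      ⟨A₀.pow_mem ha d, by rw [eq_inv_of_mul_eq_one_left hd]; exact K₀.inv_mem (K₀.pow_mem hk d)⟩
    rw [hK₀.disjoint.eq_bot, Subgroup.mem_bot] at h1
    exact ⟨a, ha, k, hk, hak.symm, h1, by rwa [h1, one_mul] at hd⟩
  have eq_one_of : ∀ {H : Subgroup R} {x : R} {d : ℕ}, x ∈ H → (Nat.card H).Coprime d →
      x ^ d = 1 → x = 1 := by
    intro H x d hx hc hd
    have h1 : x ^ Nat.card H = 1 :=
      orderOf_dvd_iff_pow_eq_one.1 (H.orderOf_dvd_natCard hx)
    have := pow_gcd_eq_one.2 ⟨h1, hd⟩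
    rwa [hc, pow_one] at this
  set K := K₀.map R.subtype with hKdef
  have hcopA : (Nat.card A₀).Coprime (Nat.card K₀) := hKcard ▸ coprime_index hA₀ hA₀.2.1
  haveI hKn : K.Normal := ⟨fun x hx g => by
    obtain ⟨k, hk, rfl⟩ := hx
    have hk1 : (k : R) ^ Nat.card K₀ = 1 :=
      orderOf_dvd_iff_pow_eq_one.1 (K₀.orderOf_dvd_natCard hk)
    let c : R := ⟨g * (k : G) * g⁻¹, (inferInstance : R.Normal).conj_mem _ k.2 g⟩
    have hc : c ^ Nat.card K₀ = 1 := Subtype.ext (by
      simp only [SubgroupClass.coe_pow, c, conj_pow]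
      rw [← SubgroupClass.coe_pow, hk1]
      simp)
    obtain ⟨a, ha, k', hk', hcak, ha1, -⟩ := hdec c _ hc
    rw [eq_one_of ha hcopA ha1, one_mul] at hcak
    exact ⟨k', hk', by rw [← hcak]; rfl⟩⟩
  have hKi : K.index = Nat.card A₀ * R.index := by
    rw [hKdef, Subgroup.index_map_subtype]
    congr 1
    exact hK₀.index_eq_card
  have hKpi : ∀ q : ℕ, q.Prime → q ∣ K.index → N + 1 < q := fun q hq hd => by
    rw [hKi] at hd
    rcases hq.dvd_mul.1 hd with h | h
    · exact hA₀.2.1 q hq h
    · exact hQ q hq h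
  have hKle : ∀ q : ℕ, q.Prime → q ∣ Nat.card K → q ≤ N + 1 := fun q hq hd => by
    rw [hKdef, Subgroup.card_map_of_injective R.subtype_injective, hKcard] at hd
    exact hA₀.2.2 q hq hd
  have hcopK : (Nat.card K).Coprime K.index := Nat.coprime_of_dvd fun q hq h1 h2 =>
    absurd (hKle q hq h1) (not_le.2 (hKpi q hq h2))
  obtain ⟨C, hC⟩ := Subgroup.exists_right_complement'_of_coprime hcopK
  have hCcard : Nat.card C = K.index := by rw [← hC.symm.index_eq_card]
  refine hnone ⟨C, ?_, fun q hq hd => hKpi q hq (hCcard ▸ hd), fun q hq hd => hKle q hq ?_⟩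
  · have hker : (δ.comp C.subtype).rangeRestrict.ker ≤ Subgroup.center C := by
      intro c hc
      rw [MonoidHom.ker_rangeRestrict, MonoidHom.mem_ker] at hc
      let r : R := ⟨c, hc⟩
      have hr : r ^ Nat.card C = 1 := Subtype.ext (by
        simp only [SubgroupClass.coe_pow, r]
        rw [← SubgroupClass.coe_pow, pow_card_eq_one', OneMemClass.coe_one]
        rfl)
      obtain ⟨a, ha, k, hk, hrak, -, hk1⟩ := hdec r _ hr
      rw [eq_one_of hk ?_ hk1, mul_one] at hrak
      · rw [Subgroup.mem_center_iff]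
        intro c'
        refine Subtype.ext ?_
        have := Subgroup.mem_center_iff.1 (hA'c (Subgroup.mem_map_of_mem R.subtype ha)) c'
        rw [← hrak] at this
        exact this
      · rw [hCcard]
        rwa [hKdef, Subgroup.card_map_of_injective R.subtype_injective] at hcopK
    haveI : Finite (δ.comp C.subtype).range :=
      Finite.of_surjective _ (δ.comp C.subtype).rangeRestrict_surjective
    intro x hx y hy
    exact congrArg Subtype.val
      (commutative_of_cyclic_center_quotient (δ.comp C.subtype).rangeRestrict hker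
        (⟨x, hx⟩ : C) ⟨y, hy⟩)
  · rwa [hC.index_eq_card] at hd

/-- A finite group with a faithful character of degree at most `N` has an abelian Hall subgroup
for the primes greater than `N + 1`. -/
theorem exists_abelian_hall (N : ℕ) : ∀ (G : Type u) [Group G] [Finite G] (χ : G → ℂ),
    IsCharacter G χ → Faithful χ → charDegree χ ≤ N → ∃ A : Subgroup G, IsAbHall N A := by
  suffices key : ∀ m : ℕ, ∀ (G : Type u) [Group G] [Finite G], Nat.card G = m →
      ∀ d : ℕ, ∀ χ : G → ℂ, charDegree χ = d → IsCharacter G χ → Faithful χ → d ≤ N →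
        ∃ A : Subgroup G, IsAbHall N A by
    intro G _ _ χ h1 h2 h3
    exact key _ G rfl _ χ rfl h1 h2 h3
  intro m
  induction m using Nat.strong_induction_on with
  | _ m ih =>
    intro G _ _ hm d
    have ih' : ∀ (H : Type u) [Group H] [Finite H], Nat.card H < Nat.card G → ∀ φ : H → ℂ,
        IsCharacter H φ → Faithful φ → charDegree φ ≤ N → ∃ A : Subgroup H, IsAbHall N A :=
      fun H _ _ hH φ h1 h2 h3 => ih _ (hm ▸ hH) H rfl _ φ rfl h1 h2 h3
    induction d using Nat.strong_induction_on with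
    | _ d ihd =>
      intro χ hd hχ hf hn
      classical
      letI := Fintype.ofFinite G
      have hpos : ∀ φ : G → ℂ, IsCharacter G φ → φ ≠ 0 → 0 < charDegree φ := by
        intro φ hφ hφ0
        by_contra h
        refine hφ0 (funext fun g => ?_)
        have := Char.isCharacter_norm_le hφ g
        rw [apply_one hφ, Nat.eq_zero_of_not_pos h] at this
        simpa using this
      by_cases hχ0 : χ = 0
      · have : ∀ g : G, g = 1 := fun g => hf g (by simp [hχ0])
        refine ⟨⊤, fun x _ y _ => by rw [this x, this y], fun q hq hq' => ?_, fun q hq hq' => ?_⟩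
        · haveI : Subsingleton G := ⟨fun a b => (this a).trans (this b).symm⟩
          rw [Nat.card_of_subsingleton (1 : (⊤ : Subgroup G))] at hq'
          exact absurd (Nat.dvd_one.1 hq') hq.ne_one
        · rw [Subgroup.index_top] at hq'
          exact absurd (Nat.dvd_one.1 hq') hq.ne_one
      obtain ⟨ψ, k, hk, hkψ⟩ := Char.exists_irr_constituent hχ hχ0
      have hψ' := Char.isCharacter_sub_constituent hχ hk hkψ
      have hψc := Char.isCharacter_of_irr ψ.2
      by_cases hirr : χ - (ψ : G → ℂ) = 0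
      · exact hall_of_irr ih' (sub_eq_zero.1 hirr ▸ ψ.2) hf (hd ▸ hn)
      have hdsum : d = charDegree (ψ : G → ℂ) + charDegree (χ - (ψ : G → ℂ)) := by
        have h1 : χ 1 = (ψ : G → ℂ) 1 + (χ - (ψ : G → ℂ)) 1 := by simp
        rw [apply_one hχ, apply_one hψc, apply_one hψ', hd] at h1
        exact_mod_cast h1
      have hp1 := hpos _ hψc (Char.irr_ne_zero ψ.2)
      have hp2 := hpos _ hψ' hirr
      obtain ⟨K₁, hK₁n, hK₁⟩ := Char.isCharacter_exists_kernel hψc
      obtain ⟨K₂, hK₂n, hK₂⟩ := Char.isCharacter_exists_kernel hψ'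
      haveI := hK₁n
      haveI := hK₂n
      by_cases h1 : K₁ = ⊥
      · exact ihd _ (by omega) _ rfl hψc
          (fun g hg => Subgroup.mem_bot.1 (h1 ▸ (hK₁ g).2 hg)) (by omega)
      by_cases h2 : K₂ = ⊥
      · exact ihd _ (by omega) _ rfl hψ'
          (fun g hg => Subgroup.mem_bot.1 (h2 ▸ (hK₂ g).2 hg)) (by omega)
      rcases hall_or_quotient ih' hχ hf (hd ▸ hn) hψc (by omega) K₁ hK₁ h1 with h | ⟨c1, i1⟩
      · exact h
      rcases hall_or_quotient ih' hχ hf (hd ▸ hn) hψ' (by omega) K₂ hK₂ h2 with h | ⟨c2, i2⟩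
      · exact h
      have hinf : K₁ ⊓ K₂ = ⊥ := (Subgroup.eq_bot_iff_forall _).2 fun g hg => hf g (by
        have a1 := (hK₁ g).1 hg.1
        have a2 := (hK₂ g).1 hg.2
        simp only [Pi.sub_apply, a1] at a2
        exact sub_left_inj.1 a2)
      refine ⟨⊤, fun a _ b _ => ?_, fun q hq hq' => ?_, fun q hq hq' => ?_⟩
      · have := (hinf ▸ ⟨c1 a b, c2 a b⟩ : a * b * a⁻¹ * b⁻¹ ∈ (⊥ : Subgroup G))
        rw [Subgroup.mem_bot] at this
        calc a * b = (a * b * a⁻¹ * b⁻¹) * (b * a) := by group
          _ = b * a := by rw [this, one_mul]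
      · rw [Subgroup.card_top, ← Subgroup.card_mul_index K₁] at hq'
        have hdvd : Nat.card K₁ ∣ K₂.index := by
          rw [← Subgroup.relIndex_bot_left, ← hinf, Subgroup.inf_relIndex_left]
          exact Subgroup.relIndex_dvd_index_of_normal K₂ K₁
        rcases hq.dvd_mul.1 hq' with h | h
        · exact i2 q hq (h.trans hdvd)
        · exact i1 q hq h
      · rw [Subgroup.index_top] at hq'
        exact absurd (Nat.dvd_one.1 hq') hq.ne_one

end Cfsg.Agent.LinearBound
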