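import Cfsg.Agent.LinearBound.Sixty
import Cfsg.Agent.LinearBound.Tools
import Cfsg.Agent.BlkChar.CycloDiv
import Cfsg.Agent.BlkChar.GalAvg
import Cfsg.Agent.BlkChar.PModular
import Cfsg.Agent.Brauer.WeakOrth
import Cfsg.Agent.Brauer.RegElement
import Cfsg.Agent.Block.Idempotent
import Cfsg.Agent.Char.Virtual
import Cfsg.Agent.Char.Burnside
import Cfsg.Agent.Char.Kernel

/-!
# The cofactor of two prime powers in the order of a simple group

If `G` is simple of order `p ^ a q ^ b g` an element of order `p` in the centre of a Sylow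
`p`-subgroup has at most `g` distinct eigenvalues in a suitable irreducible representation.
-/

set_option autoImplicit false
set_option linter.style.haveILetI false

open Cfsg
open scoped ComplexConjugate
open Module

namespace Cfsg.Agent.LinearBound

universe u

/-- The sixths of the unit circle: residues below `p` in the same sixth give close roots. -/
theorem norm_exp_sub_one_lt {θ : ℝ} (h : |θ| < Real.pi / 3) :
    ‖Complex.exp (θ * Complex.I) - 1‖ < 1 := by
  have hπ := Real.pi_pos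
  have hcos : 1 / 2 < Real.cos θ := by
    rw [← Real.cos_pi_div_three, ← Real.cos_abs θ]
    exact Real.cos_lt_cos_of_nonneg_of_le_pi (abs_nonneg _) (by linarith) h
  have hn : ‖Complex.exp (θ * Complex.I)‖ = 1 := Complex.norm_exp_ofReal_mul_I θ
  have h2 : ‖Complex.exp (θ * Complex.I) - 1‖ ^ 2 < 1 := by
    rw [Complex.sq_norm, Complex.normSq_sub]
    simp [Complex.normSq_eq_norm_sq, hn, Complex.exp_ofReal_mul_I_re]
    linarith
  nlinarith [norm_nonneg (Complex.exp (θ * Complex.I) - 1)]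

/-- Pigeonhole: a set of fewer than `p` boxes gives two exponents bringing all ratios close. -/
theorem exists_close_powers {p : ℕ} [NeZero p] (S : Finset ℂ) (hS : ∀ μ ∈ S, μ ^ p = 1) {ε₀ : ℂ}
    (hε : ε₀ ∈ S) (hlt : 6 ^ (S.card - 1) < p) :
    ∃ i j : ℕ, i < p ∧ j < p ∧ i ≠ j ∧
      ∀ μ ∈ S, ‖μ ^ i / μ ^ j - ε₀ ^ i / ε₀ ^ j‖ < 1 := by
  classical
  have hp : 0 < p := NeZero.pos p
  set ζ : ℂ := GalAvg.zeta p with hζ
  have hprim := GalAvg.zeta_spec p
  have hex : ∀ μ ∈ S, ∃ e : ℕ, μ = ε₀ * ζ ^ e := by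
    intro μ hμ
    have h0 : ε₀ ≠ 0 := fun h => by
      have := hS _ hε
      rw [h, zero_pow hp.ne'] at this
      exact zero_ne_one this
    obtain ⟨e, -, he⟩ := hprim.eq_pow_of_pow_eq_one
      (show (μ / ε₀) ^ p = 1 by rw [div_pow, hS μ hμ, hS _ hε, div_one])
    exact ⟨e, by rw [hζ, he, mul_div_cancel₀ _ h0]⟩
  choose e he using hex
  let box : Fin p → (↥(S.erase ε₀) → Fin 6) := fun i μ =>
    ⟨(i.val * e μ.1 (Finset.mem_of_mem_erase μ.2) % p) * 6 / p,
      Nat.div_lt_of_lt_mul (Nat.mul_lt_mul_of_pos_right (Nat.mod_lt _ hp) (by norm_num))⟩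
  obtain ⟨i, j, hne, hij⟩ := Fintype.exists_ne_map_eq_of_card_lt box (by
    rw [Fintype.card_fun, Fintype.card_fin, Fintype.card_coe, Finset.card_erase_of_mem hε,
      Fintype.card_fin]
    exact hlt)
  refine ⟨i, j, i.2, j.2, fun h => hne (Fin.ext h), fun μ hμ => ?_⟩
  rcases eq_or_ne μ ε₀ with rfl | hμ0
  · rw [sub_self, norm_zero]; exact one_pos
  have hμe : μ ∈ S.erase ε₀ := Finset.mem_erase.2 ⟨hμ0, hμ⟩
  set E := e μ (Finset.mem_of_mem_erase hμe) with hE
  set r := i.val * E % p with hr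
  set s := j.val * E % p with hs
  have hrs : r * 6 / p = s * 6 / p := congrArg Fin.val (congrFun hij ⟨μ, hμe⟩)
  have hd1 : r * 6 < s * 6 + p := by
    have h1 := Nat.div_add_mod (r * 6) p
    have h2 := Nat.div_add_mod (s * 6) p
    have h3 := Nat.mod_lt (r * 6) hp
    rw [hrs] at h1
    omega
  have hd2 : s * 6 < r * 6 + p := by
    have h1 := Nat.div_add_mod (r * 6) p
    have h2 := Nat.div_add_mod (s * 6) p
    have h3 := Nat.mod_lt (s * 6) hp
    rw [hrs] at h1
    omega
  have h0 : ε₀ ≠ 0 := fun h => by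
    have := hS _ hε
    rw [h, zero_pow hp.ne'] at this
    exact zero_ne_one this
  have hζn : ‖ε₀ ^ i.val / ε₀ ^ j.val‖ = 1 := by
    simp [Complex.norm_eq_one_of_pow_eq_one (hS _ hε) hp.ne']
  have hval : μ ^ i.val / μ ^ j.val =
      (ε₀ ^ i.val / ε₀ ^ j.val) * (ζ ^ r / ζ ^ s) := by
    have hred : ∀ t : ℕ, (ζ ^ E) ^ t = ζ ^ (t * E % p) := fun t => by
      rw [← pow_mul, mul_comm E t, ← pow_eq_pow_mod _ (GalAvg.zeta_pow_card p)]
    rw [he μ (Finset.mem_of_mem_erase hμe), ← hE, mul_pow, mul_pow, hred, hred, ← hr, ← hs,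
      mul_div_mul_comm]
  have hexp : ζ ^ r / ζ ^ s =
      Complex.exp (((2 * Real.pi * ((r : ℝ) - s) / p : ℝ) : ℂ) * Complex.I) := by
    rw [hζ, GalAvg.zeta, ← Complex.exp_nat_mul, ← Complex.exp_nat_mul, ← Complex.exp_sub]
    congr 1
    push_cast
    ring
  rw [hval, show ε₀ ^ i.val / ε₀ ^ j.val * (ζ ^ r / ζ ^ s) - ε₀ ^ i.val / ε₀ ^ j.val =
    ε₀ ^ i.val / ε₀ ^ j.val * (ζ ^ r / ζ ^ s - 1) by ring, norm_mul, hζn, one_mul, hexp]
  refine norm_exp_sub_one_lt ?_
  have hpR : (0 : ℝ) < p := Nat.cast_pos.2 hp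
  have hπ := Real.pi_pos
  have e1 : (r : ℝ) * 6 < s * 6 + p := by exact_mod_cast hd1
  have e2 : (s : ℝ) * 6 < r * 6 + p := by exact_mod_cast hd2
  rw [abs_div, abs_of_pos hpR, div_lt_iff₀ hpR, abs_mul, abs_of_pos (by positivity : 0 < 2 * Real.pi)]
  have e3 : |(r : ℝ) - s| < p / 6 := abs_lt.2 ⟨by linarith, by linarith⟩
  have e4 := mul_lt_mul_of_pos_left e3 (by positivity : 0 < 2 * Real.pi)
  linarith

variable {G : Type u} [Group G] [Finite G]

/-- The eigenvalue multiplicities of a `p`-element of order `p` whose class has size prime to `p`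
are multiples of `n / gcd(n, h)`, when the character lies in the principal block. -/
theorem card_eigen_le {p : ℕ} [hp : Fact p.Prime] {M : Ideal AlgInt} (hM : IsPModular p M)
    {n : ℕ} (ρ : Representation ℂ G (Fin n → ℂ)) [ρ.IsIrreducible]
    (hblk : SameBlock M (fun _ : G => (1 : ℂ)) ρ.character) {x : G} (hx : x ^ p = 1)
    {h : ℕ} (hh : (Subgroup.centralizer ({x} : Set G)).index = h) (hph : ¬ p ∣ h)
    {ε : Fin n → ℂ} (hε : ∀ i, ε i ^ p = 1)
    (hpow : ∀ t : ℕ, ρ.character (x ^ t) = ∑ i, ε i ^ t) :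
    (Finset.univ.image ε).card ≤ Nat.gcd n h := by
  classical
  haveI : M.IsPrime := Block.isPrime_of_isPModular hM
  have hn0 : n ≠ 0 := fun hn => by
    subst hn
    haveI := Char.nontrivial_of_isIrreducible ρ
    exact not_subsingleton (Fin 0 → ℂ) inferInstance
  have hnC : (n : ℂ) ≠ 0 := Nat.cast_ne_zero.2 hn0
  have h1n : ρ.character 1 = n := by simp [Representation.char_one]
  set d := Nat.gcd n h with hd
  obtain ⟨m, hm⟩ : d ∣ n := Nat.gcd_dvd_left n h
  obtain ⟨h₁, hh₁⟩ : d ∣ h := Nat.gcd_dvd_right n h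
  have hd0 : 0 < d := Nat.gcd_pos_of_pos_left _ (Nat.pos_of_ne_zero hn0)
  have hm0 : m ≠ 0 := fun h => hn0 (by rw [hm, h, mul_zero])
  have hmC : (m : ℂ) ≠ 0 := Nat.cast_ne_zero.2 hm0
  have hcop : Nat.Coprime m h₁ := by
    have := Nat.coprime_div_gcd_div_gcd (m := n) (n := h) hd0
    rwa [← hd, hm, hh₁, Nat.mul_div_cancel_left _ hd0, Nat.mul_div_cancel_left _ hd0] at this
  have hclass : ∀ t : ℕ, ¬ p ∣ t → (Subgroup.centralizer ({x ^ t} : Set G)).index = h := by
    intro t ht
    rw [← hh]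
    congr 1
    obtain ⟨u, hu⟩ : ∃ u, (x ^ t) ^ u = x := by
      have hcop : Nat.Coprime t p := (hp.out.coprime_iff_not_dvd.2 ht).symm
      obtain ⟨u, -, hu⟩ := Nat.exists_mul_mod_eq_one_of_coprime hcop hp.out.one_lt
      exact ⟨u, by rw [← pow_mul, pow_eq_pow_mod _ hx, hu, pow_one]⟩
    ext g
    simp only [Subgroup.mem_centralizer_singleton_iff]
    exact ⟨fun hg => by rw [← hu]; exact ((show Commute g (x ^ t) from hg).pow_right u),
      fun hg => (show Commute g x from hg).pow_right t⟩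
  have hint : ∀ t : ℕ, IsIntegral ℤ (ρ.character (x ^ t) / m) := by
    intro t
    by_cases ht : p ∣ t
    · obtain ⟨c, rfl⟩ := ht
      rw [pow_mul, hx, one_pow, h1n, hm, Nat.cast_mul, mul_div_cancel_right₀ _ hmC]
      exact Char.isIntegral_of_nat d
    · obtain ⟨u, v, huv⟩ := Nat.isCoprime_iff_coprime.2 hcop
      have he : ρ.character (x ^ t) / (m : ℂ) = (v : ℂ) *
          (((Subgroup.centralizer ({x ^ t} : Set G)).index : ℂ) * ρ.character (x ^ t) /
            (finrank ℂ (Fin n → ℂ) : ℂ)) + (u : ℂ) * ρ.character (x ^ t) := by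
        have : (u : ℂ) * (m : ℂ) + (v : ℂ) * (h₁ : ℂ) = 1 := by exact_mod_cast huv
        have hdC : (d : ℂ) ≠ 0 := Nat.cast_ne_zero.2 hd0.ne'
        have hfr : (finrank ℂ (Fin n → ℂ) : ℂ) = (d : ℂ) * m := by
          rw [Module.finrank_fin_fun]; exact_mod_cast hm
        rw [hclass t ht, hh₁, hfr, Nat.cast_mul]
        field_simp
        linear_combination -(ρ.character (x ^ t)) * this
      rw [he]
      exact ((Char.isIntegral_of_int v).mul
          (Char.isIntegral_classSize_mul_character_div ρ (x ^ t))).add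
        ((Char.isIntegral_of_int u).mul (Char.character_isIntegral ρ _))
  -- multiplicities
  let a : ZMod (p ^ (0 + 1)) → ℤ := fun l =>
    ((Finset.univ.filter fun i => ε i = (ZMod.stdAddChar l : ℂ)).card : ℤ)
  have hN : p ^ (0 + 1) = p := by simp
  have hroot : ∀ l : ZMod (p ^ (0 + 1)), (ZMod.stdAddChar l : ℂ) ^ p = 1 := fun l => by
    rw [← AddChar.map_nsmul_eq_pow]
    have : p • l = 0 := by
      rw [nsmul_eq_mul, show ((p : ℕ) : ZMod (p ^ (0 + 1))) = ((p ^ (0 + 1) : ℕ) : ZMod (p ^ (0 + 1)))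
        by rw [hN], ZMod.natCast_self, zero_mul]
    rw [this, AddChar.map_zero_eq_one]
  have hidx : ∀ i, ∃ l : ZMod (p ^ (0 + 1)), ε i = (ZMod.stdAddChar l : ℂ) := fun i => by
    have hprim := BlkChar.Cyclo.stdAddChar_unit_isPrimitiveRoot (N := p ^ (0 + 1)) isUnit_one
    obtain ⟨k, -, hk⟩ := hprim.eq_pow_of_pow_eq_one (show ε i ^ p ^ (0 + 1) = 1 by rw [hN, hε])
    exact ⟨k • (1 : ZMod (p ^ (0 + 1))), by rw [AddChar.map_nsmul_eq_pow, hk]⟩
  choose idx hidx' using hidx
  have hinj : Function.Injective fun l : ZMod (p ^ (0 + 1)) => (ZMod.stdAddChar l : ℂ) :=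
    ZMod.injective_stdAddChar
  have hfilter : ∀ l, (Finset.univ.filter fun i => ε i = (ZMod.stdAddChar l : ℂ)) =
      Finset.univ.filter fun i => idx i = l := fun l => Finset.filter_congr fun i _ => by
    rw [hidx' i]
    exact hinj.eq_iff
  have hcev : BlkChar.Cyclo.cev a 1 = ρ.character x := by
    have h1 := hpow 1
    rw [pow_one] at h1
    rw [h1, ← Finset.sum_fiberwise_of_maps_to (g := idx) (t := Finset.univ)
      (fun i _ => Finset.mem_univ _), BlkChar.Cyclo.cev]
    refine Finset.sum_congr rfl fun l _ => ?_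
    rw [Finset.sum_congr rfl (g := fun _ => (ZMod.stdAddChar l : ℂ)) fun i hi => by
        rw [pow_one, hidx' i, (Finset.mem_filter.1 hi).2], Finset.sum_const, one_mul, nsmul_eq_mul]
    simp [a, hfilter]
  have hsum : ∑ l, a l = (n : ℤ) := by
    have := Finset.card_eq_sum_card_fiberwise (f := idx) (s := Finset.univ) (t := Finset.univ)
      (fun i _ => Finset.mem_univ _)
    simp only [a, hfilter]
    rw [← Nat.cast_sum, ← this, Finset.card_univ, Fintype.card_fin]
  -- divisibility by the part of `m` prime to `p`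
  have hdiv : ∀ l, (m : ℤ) ∣ (p : ℤ) * a l := by
    intro l
    set z : ℂ := (ZMod.stdAddChar l : ℂ) with hz
    have hz1 := hroot l
    have hz0 : z ≠ 0 := fun h0 => by
      rw [← hz, h0, zero_pow hp.out.ne_zero] at hz1
      exact zero_ne_one hz1
    have hs : ∑ t ∈ Finset.range p, (z ^ t)⁻¹ * ρ.character (x ^ t) = ((p * a l : ℤ) : ℂ) := by
      simp only [hpow, Finset.mul_sum]
      rw [Finset.sum_comm, Finset.sum_congr rfl
        (g := fun i => if ε i = z then (p : ℂ) else 0) fun i _ => ?_,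
        Finset.sum_ite, Finset.sum_const_zero, add_zero, Finset.sum_const, nsmul_eq_mul]
      · simp [a, hz, mul_comm]
      · have e : ∀ t : ℕ, (z ^ t)⁻¹ * ε i ^ t = (ε i / z) ^ t := fun t => by
          rw [div_pow, div_eq_mul_inv, mul_comm]
        simp only [e]
        split_ifs with hi
        · simp [hi, hz0]
        · rw [geom_sum_eq (fun h => hi ((div_eq_one_iff_eq hz0).1 h)), div_pow, hε,
            show z ^ p = 1 from hz1, div_one, sub_self, zero_div]
    have hi : IsIntegral ℤ (((p * a l : ℤ) : ℂ) / m) := by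
      rw [← hs, Finset.sum_div]
      refine IsIntegral.sum _ fun t _ => ?_
      rw [mul_div_assoc]
      refine IsIntegral.mul (IsIntegral.of_pow hp.out.pos ?_) (hint t)
      rw [inv_pow, ← pow_mul, mul_comm, pow_mul, show z ^ p = 1 from hz1, one_pow, inv_one]
      exact isIntegral_one
    obtain ⟨j, hj⟩ := GalAvg.int_of_isIntegral_div hi
    refine ⟨j, ?_⟩
    have : ((p * a l : ℤ) : ℂ) = ((m * j : ℤ) : ℂ) := by
      rw [Int.cast_mul (m : ℤ) j, ← hj, Int.cast_natCast, mul_div_cancel₀ _ hmC]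
    exact_mod_cast this
  -- the part of `p`
  set k := m.factorization p with hk
  obtain ⟨m', hm'⟩ : p ^ k ∣ m := Nat.ordProj_dvd m p
  have hm'p : ¬ p ∣ m' := by
    intro hdvd
    exact Nat.pow_succ_factorization_not_dvd hm0 hp.out
      (by rw [← hk, pow_succ, hm']; exact mul_dvd_mul_left _ hdvd)
  have hpkC : ((p : ℂ) ^ k) ≠ 0 := pow_ne_zero _ (Nat.cast_ne_zero.2 hp.out.ne_zero)
  have hdiff : ∀ l, (p : ℤ) ^ k ∣ a l - a 0 := by
    intro l
    obtain ⟨⟨r, s⟩, rfl⟩ := BlkChar.Cyclo.coord_bijective.2 l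
    have h0 : BlkChar.Cyclo.coord (p := p) (e := 0) r ⟨0, hp.out.pos⟩ = 0 := by
      have hr : r.val = 0 := by
        have := r.isLt
        simp only [pow_zero] at this
        omega
      simp [BlkChar.Cyclo.coord, hr]
    have := BlkChar.Cyclo.pow_dvd_diff hM a isUnit_one (n := k) (by
      rw [hcev]
      refine Block.memLocalRing_of_isIntegral ?_
      have e : ρ.character x / (p : ℂ) ^ k = (m' : ℂ) * (ρ.character (x ^ 1) / m) := by
        have : (m' : ℂ) ≠ 0 := Nat.cast_ne_zero.2 fun h => hm0 (by rw [hm', h, mul_zero])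
        rw [pow_one, hm', Nat.cast_mul, Nat.cast_pow]
        field_simp
      rw [e]
      exact (Char.isIntegral_of_nat m').mul (hint 1)) r s
    rwa [h0] at this
  choose c hc using hdiff
  set C := ∑ l, c l with hC
  have htot : (n : ℤ) = p * a 0 + p ^ k * C := by
    rw [← hsum, hC, Finset.mul_sum, Finset.sum_congr rfl (g := fun l => a 0 + (p : ℤ) ^ k * c l)
      fun l _ => by rw [← hc l, add_sub_cancel], Finset.sum_add_distrib, Finset.sum_const,
      Finset.card_univ, ZMod.card, nsmul_eq_mul]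
    simp
  set Z : ℂ := ∑ l, (c l : ℂ) * (ZMod.stdAddChar l : ℂ) with hZ
  have hxZ : ρ.character x = (p : ℂ) ^ k * Z := by
    rw [← hcev, BlkChar.Cyclo.cev, Finset.sum_congr rfl
      (g := fun l => (a 0 : ℂ) * (ZMod.stdAddChar l : ℂ) +
        (p : ℂ) ^ k * ((c l : ℂ) * (ZMod.stdAddChar l : ℂ))) fun l _ => ?_,
      Finset.sum_add_distrib, ← Finset.mul_sum, ← Finset.mul_sum, ← hZ, add_eq_right]
    · rw [AddChar.sum_eq_zero_of_ne_one, mul_zero]
      intro h1
      have h2 := DFunLike.congr_fun h1 (1 : ZMod (p ^ (0 + 1)))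
      rw [AddChar.one_apply, ← AddChar.map_zero_eq_one (ZMod.stdAddChar (N := p ^ (0 + 1)))] at h2
      haveI : Fact (1 < p ^ (0 + 1)) := ⟨by rw [hN]; exact hp.out.one_lt⟩
      exact one_ne_zero (hinj h2)
    · rw [one_mul, show a l = a 0 + (p : ℤ) ^ k * c l by rw [← hc l]; ring]
      push_cast
      ring
  have hZC : MemLocalIdeal M (Z - (C : ℂ)) := by
    rw [hZ, hC, Int.cast_sum, ← Finset.sum_sub_distrib]
    refine Block.memLocalIdeal_sum _ _ fun l _ => ?_
    rw [← mul_sub_one]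
    exact Block.memLocalIdeal_mul_left (intCast_mem (Block.localRing M) _)
      (BlkChar.Cyclo.sub_one_mem_of_pow_prime_pow hM (k := 1) (by simpa only [pow_one] using hroot l))
  have hb : MemLocalIdeal M ((h : ℂ) - (h : ℂ) * ρ.character x / n) := by
    have := hblk x
    simp only [centralChar, hh, h1n] at this
    simpa using this
  have hdp : ¬ p ∣ d := fun hd' => hph (hd'.trans (Nat.gcd_dvd_right n h))
  set n' := d * m' with hn'
  have hnn : n = p ^ k * n' := by rw [hm, hm', hn']; ring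
  have hn'0 : (n' : ℂ) ≠ 0 := Nat.cast_ne_zero.2 fun h => hn0 (by rw [hnn, h, mul_zero])
  have hkey : (p : ℤ) ∣ (h : ℤ) * ((n' : ℤ) - C) := by
    rw [← Block.memLocalIdeal_intCast_iff hM]
    have h1 := Block.memLocalIdeal_mul_left (Block.memLocalRing_natCast (M := M) n') hb
    have h2 := Block.memLocalIdeal_mul_left (Block.memLocalRing_natCast (M := M) h) hZC
    convert Block.memLocalIdeal_add h1 h2 using 1
    rw [hxZ, hnn]
    push_cast
    field_simp
    ring
  have hpC : (p : ℤ) ∣ (n' : ℤ) - C := by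
    refine ((Nat.prime_iff_prime_int.1 hp.out).dvd_mul.1 hkey).resolve_left fun hd' => hph ?_
    exact_mod_cast hd'
  have ha0 : (p : ℤ) ^ k ∣ a 0 := by
    obtain ⟨t, ht⟩ := hpC
    refine ⟨t, ?_⟩
    have h1 : (p : ℤ) * a 0 = (p : ℤ) * ((p : ℤ) ^ k * t) := by
      have h2 : (n : ℤ) = (p : ℤ) ^ k * n' := by exact_mod_cast hnn
      linear_combination h2 - htot + (p : ℤ) ^ k * ht
    exact mul_left_cancel₀ (Int.natCast_ne_zero.2 hp.out.ne_zero) h1
  have hma : ∀ l, (m : ℤ) ∣ a l := by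
    intro l
    have h1 : (p : ℤ) ^ k ∣ a l := by
      have := (Dvd.intro _ (hc l).symm : (p : ℤ) ^ k ∣ a l - a 0)
      simpa using dvd_add this ha0
    have h2 : (m' : ℤ) ∣ a l := by
      refine (Int.natCast_dvd_natCast.2 (Dvd.intro_left _ hm'.symm) |>.trans (hdiv l)
        |> fun h => ?_)
      refine (Int.isCoprime_iff_nat_coprime.2 ?_).dvd_of_dvd_mul_left h
      simpa using ((hp.out.coprime_iff_not_dvd).2 hm'p).symm
    rw [hm', Nat.cast_mul, Nat.cast_pow]
    refine IsCoprime.mul_dvd ?_ h1 h2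
    refine IsCoprime.pow_left (Int.isCoprime_iff_nat_coprime.2 ?_)
    simpa using (hp.out.coprime_iff_not_dvd).2 hm'p
  -- counting
  have hle : m * (Finset.univ.image ε).card ≤ n := by
    conv_rhs => rw [← Fintype.card_fin n, ← Finset.card_univ,
      Finset.card_eq_sum_card_image ε]
    rw [mul_comm, ← smul_eq_mul, ← Finset.sum_const]
    refine Finset.sum_le_sum fun μ hμ => ?_
    obtain ⟨i, -, rfl⟩ := Finset.mem_image.1 hμ
    have h1 := hma (idx i)
    have e : a (idx i) = ((Finset.univ.filter fun j => ε j = ε i).card : ℤ) := by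
      simp only [a, ← hidx' i]
    rw [e, Int.natCast_dvd_natCast] at h1
    exact Nat.le_of_dvd (Finset.card_pos.2 ⟨i, by simp⟩) h1
  conv_rhs at hle => rw [hm, mul_comm]
  exact Nat.le_of_mul_le_mul_left hle (Nat.pos_of_ne_zero hm0)

/-- In a simple group of order `p ^ a q ^ b g`, other than `p`, we have `p < 6 ^ (g - 1)`. -/
theorem cofactor_bound [IsSimpleGroup G] {p q a b g₀ : ℕ} (hp : p.Prime) (hq : q.Prime)
    (ha : 0 < a) (hg : Nat.card G = p ^ a * q ^ b * g₀) (hne : Nat.card G ≠ p) :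
    p < 6 ^ (g₀ - 1) := by
  classical
  haveI := Fintype.ofFinite G
  haveI := Fact.mk hp
  by_contra hcon
  push Not at hcon
  have hpG : p ∣ Nat.card G := hg ▸ ((dvd_pow_self p ha.ne').mul_right _).mul_right _
  have hcen : Subgroup.center G = ⊥ := by
    refine ((inferInstance : (Subgroup.center G).Normal).eq_bot_or_eq_top).resolve_right fun h => ?_
    have hpr := Char.simple_commutative_prime_card (G := G) fun x y =>
      (Subgroup.mem_center_iff.1 (h ▸ Subgroup.mem_top x) y).symm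
    exact hne ((Nat.prime_dvd_prime_iff_eq hp hpr).1 hpG).symm
  obtain ⟨P⟩ := (inferInstance : Nonempty (Sylow p G))
  haveI : Nontrivial (P : Subgroup G) := by
    rw [← Finite.one_lt_card_iff_nontrivial]
    exact lt_of_lt_of_le hp.one_lt (Nat.le_of_dvd Nat.card_pos (P.dvd_card_of_dvd_card hpG))
  haveI := P.2.center_nontrivial
  obtain ⟨k, hk⟩ := (P.2.to_subgroup (Subgroup.center (P : Subgroup G))).exists_card_eq
  have hk0 : k ≠ 0 := fun h0 => by
    rw [h0, pow_zero] at hk
    exact (Finite.one_lt_card (α := Subgroup.center (P : Subgroup G))).ne' hk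
  obtain ⟨w, hw⟩ := exists_prime_orderOf_dvd_card' p (hk ▸ dvd_pow_self p hk0)
  set x : G := ((w : (P : Subgroup G)) : G) with hxdef
  have hxo : orderOf x = p := by rw [hxdef, Subgroup.orderOf_coe, Subgroup.orderOf_coe, hw]
  have hx1 : x ≠ 1 := fun h => hp.ne_one (by rw [← hxo, h, orderOf_one])
  set h := (Subgroup.centralizer ({x} : Set G)).index with hh
  have hph : ¬ p ∣ h := by
    intro hd
    refine P.not_dvd_index (hd.trans (Subgroup.index_dvd_of_le fun y hy => ?_))
    rw [Subgroup.mem_centralizer_singleton_iff]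
    exact congrArg Subtype.val (Subgroup.mem_center_iff.1 w.2 ⟨y, hy⟩)
  obtain ⟨M, hM⟩ := BlkChar.exists_isPModular p hp
  obtain ⟨Mq, hMq⟩ := BlkChar.exists_isPModular q hq
  haveI : M.IsPrime := Block.isPrime_of_isPModular hM
  haveI : Mq.IsPrime := Block.isPrime_of_isPModular hMq
  haveI := Fact.mk hq
  set B := principalBlock M G with hBdef
  have hB : IsPBlock M B := ⟨Char.trivialIrr G, rfl⟩
  obtain ⟨χ, hχB, hχ1, hχq⟩ : ∃ χ : IrrCharacter G, χ ∈ B ∧ χ ≠ Char.trivialIrr G ∧
      ¬ q ∣ charDegree (χ : G → ℂ) := by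
    by_contra hall
    push Not at hall
    have h0 := Brauer.weakOrth_of_integral hM B (Block.blockCoeff_memLocalRing hB)
      (x := (1 : G)) (y := x) (by rw [orderOf_one]; exact hp.not_dvd_one) (hxo ▸ dvd_rfl)
    rw [finsum_mem_eq_toFinset_sum] at h0
    have hone : Char.trivialIrr G ∈ B.toFinset :=
      Set.mem_toFinset.2 (Block.sameBlock_refl _)
    rw [← Finset.add_sum_erase _ _ hone] at h0
    have h3 : MemLocalIdeal Mq (∑ χ ∈ B.toFinset.erase (Char.trivialIrr G),
        (χ : G → ℂ) 1 * conj ((χ : G → ℂ) x)) := by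
      refine Block.memLocalIdeal_sum _ _ fun χ hχ => ?_
      rw [Finset.mem_erase, Set.mem_toFinset] at hχ
      rw [apply_one (Char.isCharacter_of_irr χ.2)]
      exact Block.memLocalIdeal_mul_right
        ((Block.memLocalIdeal_natCast_iff hMq _).2 (hall χ hχ.2 hχ.1))
        (Block.memLocalRing_of_isIntegral (by
          rw [← Char.irr_inv χ.2]
          exact Char.isCharacter_isIntegral (Char.isCharacter_of_irr χ.2) _))
    have h4 := Block.memLocalIdeal_sub (x := 0)
      ((Block.memLocalIdeal_natCast_iff hMq 0).2 (dvd_zero q) |> fun h => by simpa using h) h3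
    rw [← h0, add_sub_cancel_right] at h4
    simp [Char.trivialIrr] at h4
    exact Block.not_memLocalIdeal_one h4
  obtain ⟨n, ρ, hρ, hρχ⟩ := χ.2
  haveI := hρ
  have hdeg : charDegree (χ : G → ℂ) = n := by simp [charDegree, ← hρχ, Representation.char_one]
  obtain ⟨b', ε', hb', hε'⟩ := Char.exists_eigenbasis ρ x
  have hfr : finrank ℂ (Fin n → ℂ) = n := Module.finrank_fin_fun ℂ
  let e := finCongr hfr
  set bb := b'.reindex e with hbb
  set ε := ε' ∘ e.symm with hεdef
  have hb : ∀ i, ρ x (bb i) = ε i • bb i := fun i => by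
    rw [hbb, Basis.reindex_apply]; exact hb' _
  have hε : ∀ i, ε i ^ p = 1 := fun i => hxo ▸ hε' _
  have hpow : ∀ t : ℕ, ρ.character (x ^ t) = ∑ i, ε i ^ t := fun t => by
    rw [Char.character_pow_eq_sum ρ hb' t]
    exact (Fintype.sum_equiv e _ _ fun i => by simp [hεdef])
  have hcard := card_eigen_le hM ρ (by rw [hρχ]; exact hχB) (by rw [← hxo, pow_orderOf_eq_one])
    hh.symm hph hε hpow
  set d := Nat.gcd n h with hd
  have hdg : d ∣ g₀ := by
    have h1 : d ∣ p ^ a * (q ^ b * g₀) :=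
      mul_assoc (p ^ a) (q ^ b) g₀ ▸ hg ▸ (Nat.gcd_dvd_right n h).trans (Subgroup.index_dvd_card _)
    have h2 : d.Coprime (p ^ a) :=
      ((hp.coprime_iff_not_dvd.2 fun h' => hph (h'.trans (Nat.gcd_dvd_right n h))).symm).pow_right a
    have h3 : d.Coprime (q ^ b) :=
      ((hq.coprime_iff_not_dvd.2 fun h' => hχq (hdeg ▸ h'.trans (Nat.gcd_dvd_left n h))).symm).pow_right b
    exact h3.dvd_of_dvd_mul_left (h2.dvd_of_dvd_mul_left h1)
  have hg0 : 0 < g₀ := Nat.pos_of_ne_zero fun h0 => Nat.card_pos.ne' (by rw [hg, h0, mul_zero])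
  have hdle : d ≤ g₀ := Nat.le_of_dvd hg0 hdg
  set S := Finset.univ.image ε with hS
  have hlt : 6 ^ (S.card - 1) < p := by
    refine lt_of_le_of_ne ((Nat.pow_le_pow_right (by norm_num) (by omega)).trans hcon) fun h6 => ?_
    rcases Nat.eq_zero_or_pos (S.card - 1) with h0 | h0
    · rw [h0, pow_zero] at h6; exact hp.ne_one h6.symm
    · have : 6 ∣ p := h6 ▸ dvd_pow_self 6 h0.ne'
      rcases hp.eq_one_or_self_of_dvd 6 this with h | h
      · omega
      · rw [← h] at hp; norm_num at hp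
  have hn0 : n ≠ 0 := fun hn => by
    subst hn
    haveI := Char.nontrivial_of_isIrreducible ρ
    exact not_subsingleton (Fin 0 → ℂ) inferInstance
  let i₀ : Fin n := ⟨0, Nat.pos_of_ne_zero hn0⟩
  haveI : NeZero p := ⟨hp.ne_zero⟩
  obtain ⟨i, j, hi, hj, hij, hclose⟩ := exists_close_powers S
    (fun μ hμ => by obtain ⟨l, -, rfl⟩ := Finset.mem_image.1 hμ; exact hε l)
    (Finset.mem_image_of_mem ε (Finset.mem_univ i₀)) hlt
  set y := x ^ i * (x ^ j)⁻¹ with hy
  have hy1 : y ≠ 1 := fun h1 => hij (pow_injOn_Iio_orderOf (by rw [hxo]; exact hi)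
    (by rw [hxo]; exact hj) (mul_inv_eq_one.1 h1))
  have hbt : ∀ (t : ℕ) l, ρ (x ^ t) (bb l) = ε l ^ t • bb l := by
    intro t l
    induction t with
    | zero => simp
    | succ t ih => rw [pow_succ', map_mul, Module.End.mul_apply, ih, map_smul, hb, smul_smul, ← pow_succ]
  have hεne : ∀ l, ε l ≠ 0 := fun l h0 => by
    have := hε l
    rw [h0, zero_pow hp.ne_zero] at this
    exact zero_ne_one this
  have hyb : ∀ l, ρ y (bb l) = (ε l ^ i / ε l ^ j) • bb l := by
    intro l
    have hjinv : ρ (x ^ j)⁻¹ (bb l) = (ε l ^ j)⁻¹ • bb l := by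
      have h1 := congrArg (ρ (x ^ j)⁻¹) (hbt j l)
      rw [map_smul, ← Module.End.mul_apply, ← map_mul, inv_mul_cancel, map_one,
        Module.End.one_apply] at h1
      conv_rhs => rw [h1, smul_smul, inv_mul_cancel₀ (pow_ne_zero _ (hεne l)), one_smul]
    rw [hy, map_mul, Module.End.mul_apply, hjinv, map_smul, hbt, smul_smul, mul_comm, div_eq_mul_inv]
  set c := ε i₀ ^ i / ε i₀ ^ j with hc
  have hcn : ‖c‖ = 1 := by
    simp [hc, Complex.norm_eq_one_of_pow_eq_one (hε i₀) hp.ne_zero]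
  refine false_of_sixty ρ hρ y hy1 c hcn ⟨bb i₀, bb.ne_zero _, hyb i₀⟩ ?_ ?_
  · intro v μ hv hvμ
    obtain ⟨l, hl⟩ : ∃ l, bb.repr v l ≠ 0 := by
      by_contra h0
      push Not at h0
      exact hv (bb.repr.map_eq_zero_iff.1 (Finsupp.ext h0))
    have h1 : ρ y v = ∑ k, ((ε k ^ i / ε k ^ j) * bb.repr v k) • bb k := by
      conv_lhs => rw [← bb.sum_repr v]
      rw [map_sum]
      exact Finset.sum_congr rfl fun k _ => by rw [map_smul, hyb, smul_smul, mul_comm]
    have h2 := congrArg (fun z => bb.repr z l) (h1.symm.trans hvμ)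
    simp only [bb.repr_sum_self, map_smul, Finsupp.smul_apply, smul_eq_mul] at h2
    rw [← mul_right_cancel₀ hl h2]
    exact hclose _ (Finset.mem_image_of_mem ε (Finset.mem_univ l))
  · by_contra hall
    push Not at hall
    have hker : ∀ g : G, ρ y * ρ g = ρ g * ρ y := fun g => LinearMap.ext fun v => by
      simp [hall]
    have hker' : ∀ g : G, ρ (y * g * y⁻¹ * g⁻¹) = 1 := fun g => by
      rw [map_mul, map_mul, map_mul, hker g, mul_assoc (ρ g), ← map_mul ρ y y⁻¹, mul_inv_cancel,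
        map_one, mul_one, ← map_mul, mul_inv_cancel, map_one]
    have hyz : y ∈ Subgroup.center G := by
      rw [Subgroup.mem_center_iff]
      intro g
      have hK : MonoidHom.ker ρ = ⊥ := by
        refine ((MonoidHom.normal_ker _).eq_bot_or_eq_top).resolve_right fun hK => hχ1 ?_
        have h1 : ∀ g : G, ρ g = 1 := fun g => MonoidHom.mem_ker.1 (hK ▸ Subgroup.mem_top g)
        have hchar : ∀ g : G, (χ : G → ℂ) g = n := fun g => by
          rw [← hρχ]; simp [Representation.character, h1]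
        have h2 := Char.classInner_irr_self χ.2
        by_contra hne'
        have h3 := Char.irr_sum_eq_zero χ.2 (fun hh => hne' (Subtype.ext hh))
        simp [hchar, hn0] at h3
      have h2 : y * g * y⁻¹ * g⁻¹ = 1 := by
        rw [← Subgroup.mem_bot, ← hK]
        exact hker' g
      calc g * y = (y * g * y⁻¹ * g⁻¹) * (g * y) := by rw [h2, one_mul]
        _ = y * g := by group
    rw [hcen, Subgroup.mem_bot] at hyz
    exact hy1 hyz

end Cfsg.Agent.LinearBound
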