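import Cfsg.Agent.LinearBound.WinterRamified
import Cfsg.Agent.PSolv.Cores

/-!
# Sylow subgroups of solvable linear groups and the prime power divisors of the degree
-/

set_option autoImplicit false
set_option linter.style.haveILetI false

open Cfsg

namespace Cfsg.Agent.LinearBound

universe u

variable {G : Type u} [Group G] [Finite G]

theorem p_part_le_of_normal {p : ℕ} [hp : Fact p.Prime] {N : Subgroup G} [N.Normal]
    (P : Sylow p N) (hP : (P : Subgroup N).Normal) :
    (Nat.card N).factorization p ≤ (Nat.card (pCore p G)).factorization p := by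
  have h1 : ((P : Subgroup N).map N.subtype) ≤ pCore p G :=
    (Subgroup.map_mono (PSolv.le_pCore hP P.2)).trans PSolv.map_pCore_subtype_le
  have h2 := Subgroup.card_dvd_of_le h1
  rw [Subgroup.card_map_of_injective N.subtype_injective, P.card_eq_multiplicity] at h2
  exact (hp.out.pow_dvd_iff_le_factorization Nat.card_pos.ne').1 h2

/-- Solvable groups with a faithful irreducible character of good degree have normal Sylow
`p`-subgroups. -/
theorem sylow_normal_of_goodDeg {p : ℕ} [hp : Fact p.Prime] (hp2 : p ≠ 2) :
    ∀ (G : Type u) [Group G] [Finite G], Group.IsSolvable G → ∀ χ : G → ℂ,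
      IsIrrCharacter G χ → Faithful χ → GoodDeg p (charDegree χ) →
      ∀ P : Sylow p G, (P : Subgroup G).Normal := by
  classical
  suffices key : ∀ (m : ℕ) (G : Type u) [Group G] [Finite G], Nat.card G = m → Group.IsSolvable G →
      ∀ χ : G → ℂ, IsIrrCharacter G χ → Faithful χ → GoodDeg p (charDegree χ) →
        ∀ P : Sylow p G, (P : Subgroup G).Normal by
    intro G _ _ h1 χ h2 h3 h4 P
    exact key _ G rfl h1 χ h2 h3 h4 P
  intro m
  induction m using Nat.strong_induction_on with
  | _ m ih =>
    intro G _ _ hm hsolv χ hχ hf hgood P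
    haveI := hsolv
    letI := Fintype.ofFinite G
    set n := charDegree χ with hn
    have hcG := Char.isCharacter_of_irr hχ
    by_contra hnot
    haveI hUn : (pCore p G).Normal := pCore_normal p G
    set u := (Nat.card (pCore p G)).factorization p with hu
    obtain ⟨u₀, hu₀⟩ := (PSolv.isPGroup_pCore p G).exists_card_eq
    have hu_eq : u = u₀ := by
      rw [hu, hu₀, hp.out.factorization_pow, Finsupp.single_eq_same]
    have hvG : u < (Nat.card G).factorization p := by
      refine lt_of_le_of_ne ((Nat.factorization_le_iff_dvd Nat.card_pos.ne' Nat.card_pos.ne').2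
        (Subgroup.card_subgroup_dvd_card _) p) fun h => hnot ?_
      have heq : pCore p G = (P : Subgroup G) := Subgroup.eq_of_le_of_card_ge
        (PSolv.pCore_le_sylow P) (by rw [P.card_eq_multiplicity, ← h, hu_eq, hu₀])
      rw [← heq]
      exact pCore_normal p G
    -- proper normal subgroups
    have hA : ∀ N : Subgroup G, N.Normal → N ≠ ⊤ → (Nat.card N).factorization p ≤ u := by
      intro N hN hNtop
      haveI := hN
      letI := Fintype.ofFinite N
      obtain ⟨PN⟩ := (inferInstance : Nonempty (Sylow p N))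
      refine p_part_le_of_normal PN ⟨fun y hy g => ?_⟩
      have hres := Char.isCharacter_restrict hcG N
      obtain ⟨μ, hμ, hμi⟩ := Char.isCharacter_exists_coeff hres
      set a := (Nat.card N).factorization p with ha
      have key : ∀ φ : IrrCharacter N, μ φ ≠ 0 → ∃ R : Subgroup N, R.Normal ∧
          (PN : Subgroup N) ≤ R ∧ ∀ r ∈ R, (φ : N → ℂ) (r ^ p ^ a) = (φ : N → ℂ) 1 := by
        intro φ hφ
        have hdvd := (constituent_data hχ N φ (by
          rw [hμi φ]; exact Nat.cast_ne_zero.2 hφ)).1
        obtain ⟨K, hKn, hK⟩ := Char.isCharacter_exists_kernel (Char.isCharacter_of_irr φ.2)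
        haveI := hKn
        obtain ⟨φ', hφ', hφφ'⟩ := Char.irr_exists_descend φ.2 K fun k hk => (hK k).1 hk
        have h1 : (φ : N → ℂ) 1 = φ' 1 := hφφ' 1
        have hf' : Faithful φ' := by
          intro x hx
          induction x using QuotientGroup.induction_on with
          | H g => exact (QuotientGroup.eq_one_iff g).2 ((hK g).2 (by rw [hφφ', hx, h1]))
        have hlt : Nat.card (N ⧸ K) < m := by
          rw [← hm, ← Subgroup.index_eq_card]
          refine lt_of_le_of_lt (Nat.le_of_dvd Nat.card_pos (Subgroup.index_dvd_card K)) ?_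
          exact lt_of_le_of_ne (Subgroup.card_le_card_group N)
            fun h => hNtop (Subgroup.eq_top_of_card_eq N h)
        set S := PN.mapSurjective (QuotientGroup.mk'_surjective K) with hS
        have hSn : (S : Subgroup (N ⧸ K)).Normal := ih _ hlt (N ⧸ K) rfl inferInstance φ' hφ' hf'
          (hgood.of_dvd (by simpa [hn, charDegree, h1] using hdvd)) S
        refine ⟨(S : Subgroup (N ⧸ K)).comap (QuotientGroup.mk' K), hSn.comap _, ?_, fun r hr => ?_⟩
        · rw [hS, Sylow.coe_mapSurjective]
          exact Subgroup.le_comap_map _ _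
        · have h2 : Nat.card (S : Subgroup (N ⧸ K)) ∣ p ^ a := by
            rw [hS, Sylow.coe_mapSurjective, ha, ← PN.card_eq_multiplicity]
            exact Subgroup.card_map_dvd _ _
          rw [← hK, ← QuotientGroup.eq_one_iff, QuotientGroup.mk_pow]
          exact orderOf_dvd_iff_pow_eq_one.1
            ((Subgroup.orderOf_dvd_natCard _ (Subgroup.mem_comap.1 hr)).trans h2)
      choose R hRn hRP hR using key
      set R₀ : Subgroup N := ⨅ φ : {φ : IrrCharacter N // μ φ ≠ 0}, R φ.1 φ.2 with hR₀
      have hR₀n : R₀.Normal := Subgroup.normal_iInf_normal fun φ => hRn φ.1 φ.2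
      have hR₀p : IsPGroup p R₀ := by
        rintro ⟨r, hr⟩
        refine ⟨a, Subtype.ext ?_⟩
        show r ^ p ^ a = 1
        refine Subtype.ext (hf _ ?_)
        have h1 : ∀ z : N, χ z = ∑ φ : IrrCharacter N, (μ φ : ℂ) * (φ : N → ℂ) z := fun z => by
          have := congrFun hμ z
          simpa [Finset.sum_apply] using this
        rw [h1, show (1 : G) = ((1 : N) : G) from rfl, h1]
        refine Finset.sum_congr rfl fun φ _ => ?_
        by_cases h : μ φ = 0
        · simp [h]
        · rw [hR φ h r (Subgroup.mem_iInf.1 hr ⟨φ, h⟩)]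
      have heq : R₀ = (PN : Subgroup N) :=
        PN.3 hR₀p (le_iInf fun φ => hRP φ.1 φ.2)
      rw [← heq] at hy ⊢
      exact hR₀n.conj_mem y hy g
    -- every normal subgroup of prime index has index `p`
    have hM : ∀ M : Subgroup G, M.Normal → M.index.Prime → M.index = p := by
      intro M hMn hMi
      by_contra hne
      have hMtop : M ≠ ⊤ := fun h => hMi.ne_one (by rw [h, Subgroup.index_top])
      have := hA M hMn hMtop
      rw [← Subgroup.card_mul_index M, Nat.factorization_mul Nat.card_pos.ne'
        Subgroup.index_ne_zero_of_finite, Finsupp.add_apply, hMi.factorization,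
        Finsupp.single_eq_of_ne (Ne.symm hne), add_zero] at hvG
      omega
    have hsmall : ∀ H : Subgroup G, H.index ∣ n → H = ⊤ :=
      eq_top_of_index_dvd hp.out hgood hM
    have hpn : ¬ p ∣ n := hgood.not_dvd hp.out
    -- constituents on normal subgroups
    have hcons : ∀ (N : Subgroup G) (hN : N.Normal), ∃ θ : N → ℂ, IsIrrCharacter N θ ∧
        charDegree θ ∣ n ∧ Faithful θ ∧ ∀ g : G, ∀ z : N, θ (haveI := hN; MulAut.conjNormal (H := N) g z) = θ z := by
      intro N hN
      haveI := hN
      letI := Fintype.ofFinite N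
      obtain ⟨φ, e, he, hφ⟩ := Char.exists_irr_constituent (Char.isCharacter_restrict hcG N)
        fun h => Char.irr_one_ne_zero hχ (congrFun h 1)
      have hne : classInner (fun z : N => χ z) (φ : N → ℂ) ≠ 0 := by
        rw [hφ]; exact Nat.cast_ne_zero.2 he.ne'
      obtain ⟨hd, hrest⟩ := constituent_data hχ N φ hne
      obtain ⟨hinv, e', -, hval⟩ := hrest hsmall
      refine ⟨φ, φ.2, hd, fun z hz => Subtype.ext (hf _ ?_), fun g z => ?_⟩
      · rw [hval z, show (1 : G) = ((1 : N) : G) from rfl, hval 1, hz]
      · have := congrFun (hinv g) z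
        rw [CharInd.conjChar_eq_comp] at this
        exact this
    -- normal abelian subgroups are central
    have hcentral : ∀ A : Subgroup G, A.Normal → (∀ a ∈ A, ∀ b ∈ A, a * b = b * a) →
        A ≤ Subgroup.center G := by
      intro A hAn hab
      obtain ⟨θ, hθ, -, hθf, hθinv⟩ := hcons A hAn
      haveI := hAn
      have hθ1 : θ 1 = 1 :=
        Char.irr_degree_one_of_comm (fun a b => Subtype.ext (hab a a.2 b b.2)) hθ
      obtain ⟨f, hf'⟩ := Char.exists_monoidHom_of_degree_one (Char.isCharacter_of_irr hθ) hθ1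
      intro a ha
      rw [Subgroup.mem_center_iff]
      intro g
      have h := hθinv g ⟨a, ha⟩
      rw [hf', hf'] at h
      have h2 : MulAut.conjNormal (H := A) g ⟨a, ha⟩ * ⟨a, ha⟩⁻¹ = 1 := by
        refine hθf _ ?_
        rw [hf', hf', map_mul, Units.ext h, ← map_mul, mul_inv_cancel]
      have h3 : g * a * g⁻¹ * a⁻¹ = 1 := congrArg Subtype.val h2
      calc g * a = (g * a * g⁻¹ * a⁻¹) * (a * g) := by group
        _ = a * g := by rw [h3, one_mul]
    -- `U = O_p(G)` is central
    have hUc : pCore p G ≤ Subgroup.center G := by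
      obtain ⟨θ, hθ, hθd, hθf, -⟩ := hcons (pCore p G) hUn
      refine hcentral _ hUn fun a ha b hb => ?_
      obtain ⟨d, -, hd1, hdd⟩ := Char.irr_degree_dvd_card hθ
      rw [hu₀] at hdd
      obtain ⟨i, -, rfl⟩ := (Nat.dvd_prime_pow hp.out).1 hdd
      have hdeg : charDegree θ = p ^ i :=
        Nat.cast_inj.1 ((apply_one (Char.isCharacter_of_irr hθ)).symm.trans hd1)
      rw [hdeg] at hθd
      have hi : i = 0 := by
        by_contra hi
        exact hpn ((dvd_pow_self p hi).trans hθd)
      exact congrArg Subtype.val (comm_of_pGroup hp.out (PSolv.isPGroup_pCore p G)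
        (Char.isCharacter_of_irr hθ) hθf (by rw [hdeg, hi, pow_zero]; exact hp.out.one_lt)
        ⟨a, ha⟩ ⟨b, hb⟩)
    -- a normal subgroup `M` of index `p`
    haveI : Nontrivial G := by
      rw [← Finite.one_lt_card_iff_nontrivial]
      by_contra h
      have h1 : Nat.card G = 1 := le_antisymm (not_lt.1 h) Nat.card_pos
      rw [h1, Nat.factorization_one] at hvG
      exact absurd hvG (Nat.not_lt_zero _)
    obtain ⟨M, hMn, -, hMi⟩ := exists_normal_prime_index (⊥ : Subgroup G) bot_ne_top
    have hMp := hM M hMn hMi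
    haveI := hMn
    have hvM : (Nat.card M).factorization p + 1 = (Nat.card G).factorization p := by
      rw [← Subgroup.card_mul_index M, Nat.factorization_mul Nat.card_pos.ne'
        Subgroup.index_ne_zero_of_finite, Finsupp.add_apply, hMp, hp.out.factorization_self]
    have hMtop : M ≠ ⊤ := fun h => hMi.ne_one (by rw [h, Subgroup.index_top])
    have hvM' : (Nat.card M).factorization p = u :=
      le_antisymm (hA M hMn hMtop) (by omega)
    have hUM : pCore p G ≤ M := by
      intro x hx
      by_contra hxM
      have hsup : M ⊔ pCore p G = ⊤ := by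
        by_contra hne
        have hlt : M < M ⊔ pCore p G := lt_of_le_of_ne le_sup_left fun h =>
          hxM (h ▸ Subgroup.mem_sup_right hx)
        have h1 := Subgroup.relIndex_mul_index hlt.le
        rw [hMp] at h1
        rcases hp.out.eq_one_or_self_of_dvd _ ⟨_, h1.symm⟩ with h | h
        · exact hlt.not_ge (Subgroup.relIndex_eq_one.1 h)
        · rw [h] at h1
          exact hne (Subgroup.index_eq_one.1 (Nat.eq_of_mul_eq_mul_left hp.out.pos
            (h1.trans (mul_one p).symm)))
      obtain ⟨θ, hθ, hθd, hθf, -⟩ := hcons M hMn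
      have hsub : (pCore p G).subgroupOf M ≤ Subgroup.center M := fun z hz => by
        rw [Subgroup.mem_center_iff]
        exact fun y => Subtype.ext (Subgroup.mem_center_iff.1 (hUc hz) y)
      haveI hPMn : ∀ PM : Sylow p M, (PM : Subgroup M).Normal := fun PM => by
        obtain ⟨φ', hφ'⟩ : ∃ φ' : M → ℂ, φ' = θ := ⟨θ, rfl⟩
        refine ih _ ?_ M rfl inferInstance θ hθ hθf (hgood.of_dvd hθd) PM
        rw [← hm]
        exact lt_of_le_of_ne (Subgroup.card_le_card_group M)
          fun h => hMtop (Subgroup.eq_top_of_card_eq M h)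
      obtain ⟨PM⟩ := (inferInstance : Nonempty (Sylow p M))
      have h1 : (PM : Subgroup M).map M.subtype ≤ pCore p G :=
        (Subgroup.map_mono (PSolv.le_pCore (hPMn PM) PM.2)).trans PSolv.map_pCore_subtype_le
      have h2 : (PM : Subgroup M).map M.subtype = pCore p G := by
        refine Subgroup.eq_of_le_of_card_ge h1 ?_
        rw [Subgroup.card_map_of_injective M.subtype_injective, PM.card_eq_multiplicity, hvM',
          hu_eq, hu₀]
      exact hxM (h2 ▸ hx |> fun h => Subgroup.map_subtype_le _ h)
    -- a complement `K`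
    set U := pCore p G with hU
    have hUsub : Nat.card (U.subgroupOf M) = Nat.card U :=
      Nat.card_congr (Subgroup.subgroupOfEquivOfLe hUM).toEquiv
    have hUidx : (Nat.card (U.subgroupOf M)).Coprime (U.subgroupOf M).index := by
      rw [hUsub, hu₀]
      refine Nat.Coprime.pow_left _ (hp.out.coprime_iff_not_dvd.2 fun hd => ?_)
      have h1 := Subgroup.card_mul_index (U.subgroupOf M)
      have h2 : p ^ (u + 1) ∣ Nat.card M := by
        rw [← h1, hUsub, hu₀, pow_succ, hu_eq]
        exact mul_dvd_mul_left _ hd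
      have h3 := (hp.out.pow_dvd_iff_le_factorization Nat.card_pos.ne').1 h2
      omega
    obtain ⟨K₀, hK₀⟩ := Subgroup.exists_right_complement'_of_coprime hUidx
    have hK₀c : Nat.card K₀ = (U.subgroupOf M).index := by rw [← hK₀.symm.index_eq_card]
    have hK₀p : (Nat.card K₀).Coprime p := by
      rw [hK₀c, Nat.coprime_comm, hp.out.coprime_iff_not_dvd]
      intro hd
      have h1 := Subgroup.card_mul_index (U.subgroupOf M)
      have h2 : p ^ (u + 1) ∣ Nat.card M := by
        rw [← h1, hUsub, hu₀, pow_succ, hu_eq]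
        exact mul_dvd_mul_left _ hd
      have h3 := (hp.out.pow_dvd_iff_le_factorization Nat.card_pos.ne').1 h2
      omega
    set K := K₀.map M.subtype with hKdef
    have hKc : Nat.card K = Nat.card K₀ := Subgroup.card_map_of_injective M.subtype_injective
    haveI hKn : K.Normal := ⟨fun z hz g => by
      obtain ⟨k, hk, rfl⟩ := hz
      let c : M := ⟨g * (k : G) * g⁻¹, hMn.conj_mem _ k.2 g⟩
      have hkN : k ^ Nat.card K₀ = 1 :=
        orderOf_dvd_iff_pow_eq_one.1 (K₀.orderOf_dvd_natCard hk)
      have hc : c ^ Nat.card K₀ = 1 := Subtype.ext (by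
        simp only [SubgroupClass.coe_pow, c, conj_pow]
        rw [← SubgroupClass.coe_pow, hkN]
        simp)
      obtain ⟨⟨⟨w, hw⟩, ⟨k', hk'⟩⟩, hwk : w * k' = c⟩ := hK₀.2 c
      have hcomm : Commute w k' :=
        Subtype.ext (Subgroup.mem_center_iff.1 (hUc hw) (k' : G)).symm
      rw [← hwk, hcomm.mul_pow, orderOf_dvd_iff_pow_eq_one.1 (K₀.orderOf_dvd_natCard hk'),
        mul_one] at hc
      have hw2 : w ^ Nat.card (U.subgroupOf M) = 1 :=
        orderOf_dvd_iff_pow_eq_one.1 ((U.subgroupOf M).orderOf_dvd_natCard hw)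
      have hw1 := pow_gcd_eq_one.2 ⟨hc, hw2⟩
      rw [Nat.Coprime.gcd_eq_one (hK₀c ▸ Nat.coprime_comm.1 hUidx), pow_one] at hw1
      rw [hw1, one_mul] at hwk
      exact ⟨k', hk', congrArg Subtype.val hwk⟩⟩
    have hMidx : M.index = p := hMp
    have hKidx : K.index = p ^ (u + 1) := by
      rw [hKdef, Subgroup.index_map_subtype, hK₀.index_eq_card, hUsub, hu₀, hMidx, hu_eq, pow_succ]
    -- the element `x`
    obtain ⟨x, hxP, hxU⟩ : ∃ x ∈ (P : Subgroup G), x ∉ U := by
      by_contra hcon
      push Not at hcon
      have h1 := Subgroup.card_dvd_of_le (fun x hx => hcon x hx : (P : Subgroup G) ≤ U)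
      rw [P.card_eq_multiplicity, hu₀] at h1
      have := (Nat.pow_dvd_pow_iff_le_right hp.out.one_lt).1 h1
      omega
    obtain ⟨a, ha⟩ := IsPGroup.iff_orderOf.1 P.2 ⟨x, hxP⟩
    rw [Subgroup.orderOf_mk] at ha
    have hvtot : (Nat.card G).factorization p = u + 1 := by omega
    have hPU : Nat.card (P : Subgroup G) = Nat.card U * p := by
      rw [P.card_eq_multiplicity, hvtot, pow_succ, hu₀, hu_eq]
    have hUP : U ≤ (P : Subgroup G) := PSolv.pCore_le_sylow P
    have hxp : x ^ p ∈ Subgroup.center G := by
      refine hUc ?_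
      have hidx : (U.subgroupOf (P : Subgroup G)).index = p := by
        have h1 := Subgroup.card_mul_index (U.subgroupOf (P : Subgroup G))
        rw [Nat.card_congr (Subgroup.subgroupOfEquivOfLe hUP).toEquiv, hPU] at h1
        exact Nat.eq_of_mul_eq_mul_left Nat.card_pos h1
      have h2 := (U.subgroupOf (P : Subgroup G)).pow_index_mem ⟨x, hxP⟩
      rw [hidx] at h2
      exact h2
    -- the Fitting subgroup of `K`
    set F := (fittingSubgroup K).map K.subtype with hF
    by_cases hxF : x ∈ Subgroup.centralizer (F : Set G)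
    · -- then `C_G(F)` is abelian, so central
      haveI : (fittingSubgroup K).Characteristic := Subgroup.characteristic_iff_map_le.2
        fun e => (Cores.map_fittingSubgroup_equiv e).le
      haveI hFn : F.Normal := inferInstance
      set C := Subgroup.centralizer (F : Set G) with hC
      haveI hCn : C.Normal := Subgroup.normal_centralizer
      have hCK : C ⊓ K ≤ F := by
        rintro z ⟨hzC, hzK⟩
        refine ⟨⟨z, hzK⟩, Cores.centralizer_fittingSubgroup_le ?_, rfl⟩
        rw [Subgroup.mem_centralizer_iff]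
        intro y hy
        exact Subtype.ext (Subgroup.mem_centralizer_iff.1 hzC (y : G) ⟨y, hy, rfl⟩)
      have hCKc : C ⊓ K ≤ Subgroup.center G := hcentral _ inferInstance fun a ha b hb =>
        (Subgroup.mem_centralizer_iff.1 ha.1 b (hCK hb)).symm
      have hquot : ∀ a b : G, a * b * a⁻¹ * b⁻¹ ∈ K := by
        intro a b
        have hQcard : Nat.card (G ⧸ K) = p ^ (u + 1) := hKidx
        set π := QuotientGroup.mk' K
        have hUimg : U.map π ≤ Subgroup.center (G ⧸ K) := by
          rintro _ ⟨w, hw, rfl⟩
          rw [Subgroup.mem_center_iff]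
          intro y
          obtain ⟨g, rfl⟩ := QuotientGroup.mk'_surjective K y
          rw [← map_mul, ← map_mul, Subgroup.mem_center_iff.1 (hUc hw) g]
        have hinf : K ⊓ U = ⊥ := PSolv.inf_eq_bot_of_coprime_card
          (by rw [hKc, hu₀]; exact hK₀p.pow_right _)
        have hUcard : Nat.card (U.map π) = p ^ u := by
          rw [PSolv.card_map_mk_eq_relIndex, ← Subgroup.inf_relIndex_right, hinf,
            Subgroup.relIndex_bot_left, hu₀, hu_eq]
        haveI : (U.map π).Normal := hUn.map π (QuotientGroup.mk'_surjective K)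
        haveI hcyc : IsCyclic ((G ⧸ K) ⧸ U.map π) := by
          refine isCyclic_of_prime_card (p := p) ?_
          have h1 := Subgroup.card_eq_card_quotient_mul_card_subgroup (U.map π)
          rw [hQcard, hUcard, pow_succ'] at h1
          exact (Nat.eq_of_mul_eq_mul_right (pow_pos hp.out.pos u) h1).symm
        have hcomm := commutative_of_cyclic_center_quotient (QuotientGroup.mk' (U.map π))
          (by rw [QuotientGroup.ker_mk']; exact hUimg) (π a) (π b)
        rw [← QuotientGroup.eq_one_iff]
        show π (a * b * a⁻¹ * b⁻¹) = 1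
        rw [map_mul, map_mul, map_mul, map_inv, map_inv, hcomm, mul_inv_cancel_right, mul_inv_cancel]
      have hCab : ∀ a ∈ C, ∀ b ∈ C, a * b = b * a := by
        intro a ha b hb
        set c := a * b * a⁻¹ * b⁻¹ with hc
        have hcK : c ∈ K := hquot a b
        have hcC : c ∈ C := C.mul_mem (C.mul_mem (C.mul_mem ha hb) (C.inv_mem ha)) (C.inv_mem hb)
        have hcz := hCKc ⟨hcC, hcK⟩
        have haK : a ^ p ^ (u + 1) ∈ Subgroup.center G :=
          hCKc ⟨C.pow_mem ha _, hKidx ▸ K.pow_index_mem a⟩
        have hba : b * a * b⁻¹ = c⁻¹ * a := by rw [hc]; group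
        have h1 : (b * a * b⁻¹) ^ p ^ (u + 1) = a ^ p ^ (u + 1) := by
          rw [conj_pow, Subgroup.mem_center_iff.1 haK b, mul_inv_cancel_right]
        rw [hba, (show Commute c⁻¹ a from
          (Subgroup.mem_center_iff.1 ((Subgroup.center G).inv_mem hcz) a).symm).mul_pow] at h1
        have h2 : c ^ p ^ (u + 1) = 1 := inv_eq_one.1 (by rw [← inv_pow]; exact mul_eq_right.1 h1)
        have h3 : c ^ Nat.card K = 1 :=
          orderOf_dvd_iff_pow_eq_one.1 (K.orderOf_dvd_natCard hcK)
        have h4 := pow_gcd_eq_one.2 ⟨h3, h2⟩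
        rw [Nat.Coprime.gcd_eq_one (hKc ▸ hK₀p.pow_right _), pow_one] at h4
        calc a * b = c * (b * a) := by rw [hc]; group
          _ = b * a := by rw [h4, one_mul]
      have hxc : x ∈ Subgroup.center G := hcentral C hCn hCab hxF
      apply hnot
      have hle : (P : Subgroup G) ≤ Subgroup.center G := by
        have hsup : Subgroup.zpowers x ⊔ U = (P : Subgroup G) := by
          refine Subgroup.eq_of_le_of_card_ge (sup_le (Subgroup.zpowers_le.2 hxP) hUP) ?_
          have hlt : U < Subgroup.zpowers x ⊔ U := lt_of_le_of_ne le_sup_right fun h =>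
            hxU (h ▸ Subgroup.mem_sup_left (Subgroup.mem_zpowers x))
          have h1 : Nat.card (Subgroup.zpowers x ⊔ U : Subgroup G) ∣ p ^ (u + 1) := by
            rw [← hvtot, ← P.card_eq_multiplicity]
            exact Subgroup.card_dvd_of_le (sup_le (Subgroup.zpowers_le.2 hxP) hUP)
          obtain ⟨i, hi, hi'⟩ := (Nat.dvd_prime_pow hp.out).1 h1
          have h2 : Nat.card U < Nat.card (Subgroup.zpowers x ⊔ U : Subgroup G) := by
            refine lt_of_le_of_ne (Nat.le_of_dvd Nat.card_pos (Subgroup.card_dvd_of_le hlt.le))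
              fun h => hlt.ne (Subgroup.eq_of_le_of_card_ge hlt.le h.ge)
          rw [hi', hu₀] at h2
          have h3 := (Nat.pow_lt_pow_iff_right hp.out.one_lt).1 h2
          rw [hi', P.card_eq_multiplicity, hvtot]
          exact Nat.pow_le_pow_right hp.out.pos (by omega)
        rw [← hsup]
        exact sup_le (Subgroup.zpowers_le.2 hxc) hUc
      exact ⟨fun y hy g => by
        rw [Subgroup.mem_center_iff.1 (hle hy) g, mul_inv_cancel_right]; exact hy⟩
    · -- some `O_q(K)` is not centralised
      obtain ⟨q, hxq⟩ : ∃ q : Nat.Primes,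
          x ∉ Subgroup.centralizer (((pCore (q : ℕ) K).map K.subtype : Subgroup G) : Set G) := by
        by_contra hcon
        push Not at hcon
        apply hxF
        rw [hF, Cores.fittingSubgroup_eq_iSup_pCore, Subgroup.map_iSup]
        rw [Subgroup.mem_centralizer_iff]
        intro y hy
        have : (⨆ q : Nat.Primes, (pCore (q : ℕ) K).map K.subtype) ≤
            Subgroup.centralizer ({x} : Set G) := iSup_le fun q z hz =>
          Subgroup.mem_centralizer_singleton_iff.2 (Subgroup.mem_centralizer_iff.1 (hcon q) z hz)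
        exact Subgroup.mem_centralizer_singleton_iff.1 (this hy)
      haveI := Fact.mk q.2
      haveI : (pCore (q : ℕ) K).Characteristic := PSolv.pCore_characteristic _ _
      set Q := (pCore (q : ℕ) K).map K.subtype with hQdef
      haveI hQn : Q.Normal := inferInstance
      have hQq : IsPGroup (q : ℕ) Q := (PSolv.isPGroup_pCore _ _).map _
      have hqp : (q : ℕ) ≠ p := by
        intro h
        apply hxq
        rw [Subgroup.mem_centralizer_iff]
        intro y hy
        obtain ⟨y', hy', rfl⟩ := hy
        obtain ⟨i, hi⟩ := IsPGroup.iff_orderOf.1 (PSolv.isPGroup_pCore (q : ℕ) K) ⟨y', hy'⟩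
        rw [Subgroup.orderOf_mk, h] at hi
        have h1 : orderOf y' ∣ Nat.card K := orderOf_dvd_natCard y'
        have h2 : orderOf y' = 1 := Nat.dvd_one.1
          ((Nat.Coprime.gcd_eq_one (hKc ▸ hK₀p.pow_right i)) ▸ Nat.dvd_gcd h1 hi.dvd)
        rw [orderOf_eq_one_iff.1 h2]
        simp
      obtain ⟨θ, hθ, hθd, hθf, hθinv⟩ := hcons Q hQn
      refine false_of_ramified hp.out hp2 q.2 hgood Q hQq hqp hcentral hθ hθf hθd ?_ ha hxp hxq
      intro g
      rw [CharInd.conjChar_eq_comp]
      exact funext (hθinv g)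

end Cfsg.Agent.LinearBound
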