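import Cfsg.Agent.LinearBound.Sixty
import Cfsg.Agent.LinearBound.CofactorBound
import Cfsg.Agent.LinearBound.Winter
import Cfsg.Agent.SolvStruct.Nilpotent
import Mathlib.Data.Nat.Multiplicity
import Mathlib.GroupTheory.SpecificGroups.Cyclic

/-!
# Linear groups of degree less than `2 p` with non-abelian Sylow `p`-subgroups

An element of order `p` in the centre and the derived group of a Sylow subgroup has the
eigenvalues `1` and `ω`, the latter with multiplicity `p`; for `p ≥ 7` its conjugates commute, and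
the abelian normal subgroup they generate makes the group monomial.
-/

set_option autoImplicit false
set_option linter.style.haveILetI false

open Cfsg
open scoped ComplexConjugate
open Module

namespace Cfsg.Agent.LinearBound

universe u

variable {G : Type u} [Group G] [Finite G]

/-- A non-abelian `p`-group with a faithful character of degree `n < 2 p`, `n ≠ p`: some element
of order `p` has character values `(n - p) + p ζ ^ t`. -/
theorem exists_two_eigen {p : ℕ} [hp : Fact p.Prime] {P : Type u} [Group P] [Finite P]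
    (hP : IsPGroup p P) {χ : P → ℂ} (hχ : IsCharacter P χ) (hf : Faithful χ)
    (hn2 : charDegree χ < 2 * p) (hnp : charDegree χ ≠ p)
    (hna : ∃ a b : P, a * b ≠ b * a) :
    p < charDegree χ ∧ ∃ z : P, z ^ p = 1 ∧
      ∀ t : ℕ, χ (z ^ t) = ((charDegree χ - p : ℕ) : ℂ) + (p : ℂ) * GalAvg.zeta p ^ t := by
  classical
  haveI : NeZero p := ⟨hp.out.ne_zero⟩
  letI := Fintype.ofFinite P
  obtain ⟨μ, hμ, -⟩ := Char.isCharacter_exists_coeff hχ
  have hval : ∀ x, χ x = ∑ ψ : IrrCharacter P, (μ ψ : ℂ) * (ψ : P → ℂ) x := fun x => by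
    conv_lhs => rw [hμ]
    simp [Finset.sum_apply]
  have hdeg : charDegree χ = ∑ ψ : IrrCharacter P, μ ψ * charDegree (ψ : P → ℂ) := by
    have := hval 1
    rw [apply_one hχ] at this
    simp only [fun ψ : IrrCharacter P => apply_one (Char.isCharacter_of_irr ψ.2)] at this
    exact_mod_cast this
  have hone : ∀ ψ : IrrCharacter P, ∃ i : ℕ, charDegree (ψ : P → ℂ) = p ^ i := fun ψ => by
    obtain ⟨d, -, hd1, hd⟩ := Char.irr_degree_dvd_card ψ.2
    obtain ⟨k, hk⟩ := hP.exists_card_eq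
    rw [hk] at hd
    obtain ⟨i, -, rfl⟩ := (Nat.dvd_prime_pow hp.out).1 hd
    exact ⟨i, Nat.cast_inj.1 ((apply_one (Char.isCharacter_of_irr ψ.2)).symm.trans hd1)⟩
  have hlinval : ∀ ψ : IrrCharacter P, charDegree (ψ : P → ℂ) = 1 → ∀ c ∈ commutator P,
      (ψ : P → ℂ) c = 1 := fun ψ h c hc => by
    have h1 : (ψ : P → ℂ) 1 = 1 := by
      rw [apply_one (Char.isCharacter_of_irr ψ.2), h, Nat.cast_one]
    exact Char.linear_eq_one_of_mem_commutator (Char.isCharacter_of_irr ψ.2) h1 hc
  obtain ⟨ψ₀, hψ₀, hψ₀1⟩ : ∃ ψ : IrrCharacter P, μ ψ ≠ 0 ∧ charDegree (ψ : P → ℂ) ≠ 1 := by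
    by_contra hcon
    push Not at hcon
    obtain ⟨a, b, hab⟩ := hna
    apply hab
    have hc : a * b * a⁻¹ * b⁻¹ = 1 := by
      refine hf _ ?_
      rw [hval, hval 1]
      refine Finset.sum_congr rfl fun ψ _ => ?_
      by_cases h : μ ψ = 0
      · simp [h]
      rw [hlinval ψ (hcon ψ h) (a * b * a⁻¹ * b⁻¹) (Subgroup.commutator_mem_commutator
        (Subgroup.mem_top a) (Subgroup.mem_top b)), hlinval ψ (hcon ψ h) _ (one_mem _)]
    calc a * b = (a * b * a⁻¹ * b⁻¹) * (b * a) := by group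
      _ = b * a := by rw [hc, one_mul]
  obtain ⟨i, hi⟩ := hone ψ₀
  have hle : μ ψ₀ * p ^ i ≤ charDegree χ := by
    rw [hdeg, ← hi]
    exact Finset.single_le_sum (f := fun ψ : IrrCharacter P => μ ψ * charDegree (ψ : P → ℂ))
      (fun _ _ => Nat.zero_le _) (Finset.mem_univ ψ₀)
  have hp2 := hp.out.two_le
  have hi1 : i = 1 := by
    have h0 : i ≠ 0 := fun h => hψ₀1 (by rw [hi, h, pow_zero])
    by_contra h1
    have h2 : p ^ 2 ≤ μ ψ₀ * p ^ i := (Nat.pow_le_pow_right hp.out.pos (by omega)).trans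
      (Nat.le_mul_of_pos_left _ (Nat.pos_of_ne_zero hψ₀))
    nlinarith
  rw [hi1, pow_one] at hi hle
  have hμ1 : μ ψ₀ = 1 := by
    by_contra h
    have : 2 * p ≤ μ ψ₀ * p := Nat.mul_le_mul_right p (by omega)
    omega
  have hsplit := Finset.add_sum_erase (Finset.univ : Finset (IrrCharacter P))
    (fun ψ => μ ψ * charDegree (ψ : P → ℂ)) (Finset.mem_univ ψ₀)
  simp only [hμ1, hi, one_mul] at hsplit
  rw [← hdeg] at hsplit
  have hgt : p < charDegree χ := by
    rw [hμ1, one_mul] at hle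
    omega
  have hrest : ∀ ψ : IrrCharacter P, ψ ≠ ψ₀ → μ ψ ≠ 0 → charDegree (ψ : P → ℂ) = 1 := by
    intro ψ hne h0
    obtain ⟨j, hj⟩ := hone ψ
    have hb : μ ψ * p ^ j ≤ ∑ x ∈ Finset.univ.erase ψ₀, μ x * charDegree (x : P → ℂ) := by
      rw [← hj]
      exact Finset.single_le_sum (f := fun ψ : IrrCharacter P => μ ψ * charDegree (ψ : P → ℂ))
        (fun _ _ => Nat.zero_le _) (Finset.mem_erase.2 ⟨hne, Finset.mem_univ ψ⟩)
    rw [hj]
    by_contra hj1
    have hj0 : j ≠ 0 := fun h => hj1 (by rw [h, pow_zero])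
    have : p ≤ μ ψ * p ^ j :=
      (Nat.le_self_pow hj0 p).trans (Nat.le_mul_of_pos_left _ (Nat.pos_of_ne_zero h0))
    omega
  have hC : commutator P ≠ ⊥ := fun h => by
    obtain ⟨a, b, hab⟩ := hna
    have h1 := Subgroup.commutator_mem_commutator (Subgroup.mem_top a) (Subgroup.mem_top b)
    rw [← _root_.commutator_def, h, Subgroup.mem_bot] at h1
    exact hab (commutatorElement_eq_one_iff_mul_comm.1 h1)
  haveI : Group.IsNilpotent P := hP.isNilpotent
  have hinf : commutator P ⊓ Subgroup.center P ≠ ⊥ := SolvStruct.nilpotent_inf_center_ne_bot _ hC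
  set D := commutator P ⊓ Subgroup.center P with hD
  haveI : Nontrivial D := (Subgroup.nontrivial_iff_ne_bot D).2 hinf
  obtain ⟨k, hk⟩ := (hP.to_subgroup D).exists_card_eq
  have hk0 : k ≠ 0 := fun h0 => by
    rw [h0, pow_zero] at hk
    exact (Finite.one_lt_card (α := D)).ne' hk
  obtain ⟨w, hw⟩ := exists_prime_orderOf_dvd_card' p (hk ▸ dvd_pow_self p hk0)
  have hwp : (w : P) ^ p = 1 := by
    rw [← SubgroupClass.coe_pow, ← hw, pow_orderOf_eq_one]; rfl
  obtain ⟨m, ρ, hρ, hρψ⟩ := ψ₀.2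
  haveI := hρ
  haveI := Char.nontrivial_of_isIrreducible ρ
  obtain ⟨ω, hω⟩ := Char.exists_smul_of_mem_center ρ w.2.2
  have hm : (m : ℂ) = p := by
    rw [← hi, ← apply_one (Char.isCharacter_of_irr ψ₀.2), ← hρψ]
    simp [Representation.char_one]
  have hωt : ∀ t : ℕ, (ψ₀ : P → ℂ) ((w : P) ^ t) = (p : ℂ) * ω ^ t := fun t => by
    rw [← hρψ, ← hm]
    simp [Representation.character, hω, ← Module.End.one_eq_id, smul_pow, mul_comm]
  have hval' : ∀ t : ℕ, χ ((w : P) ^ t) =
      ((charDegree χ - p : ℕ) : ℂ) + (p : ℂ) * ω ^ t := fun t => by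
    rw [hval, ← Finset.add_sum_erase _ _ (Finset.mem_univ ψ₀), hμ1, hωt, Nat.cast_one, one_mul,
      add_comm]
    congr 1
    rw [show charDegree χ - p = ∑ x ∈ Finset.univ.erase ψ₀, μ x * charDegree (x : P → ℂ) by omega,
      Nat.cast_sum]
    refine Finset.sum_congr rfl fun ψ hψ => ?_
    by_cases h0 : μ ψ = 0
    · simp [h0]
    rw [hrest ψ (Finset.mem_erase.1 hψ).1 h0, hlinval ψ (hrest ψ (Finset.mem_erase.1 hψ).1 h0) _
      ((commutator P).pow_mem w.2.1 t)]
    simp
  have hωp : ω ^ p = 1 := by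
    have h1 := hval' p
    rw [hwp, apply_one hχ, Nat.cast_sub hgt.le] at h1
    have h2 : (p : ℂ) * ω ^ p = (p : ℂ) * 1 := by linear_combination -h1
    exact mul_left_cancel₀ (Nat.cast_ne_zero.2 hp.out.ne_zero) h2
  have hω1 : ω ≠ 1 := fun h => by
    have h1 : (w : P) = 1 := by
      refine hf _ ?_
      have h1 := hval' 1
      have h0 := hval' 0
      simp only [pow_one, pow_zero, h] at h1 h0
      rw [h1, h0]
    rw [Subtype.ext h1 (a2 := (1 : D)), orderOf_one] at hw
    exact hp.out.ne_one hw.symm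
  have hprim : IsPrimitiveRoot ω p := by
    refine (IsPrimitiveRoot.iff_orderOf).2 ?_
    exact orderOf_eq_prime hωp hω1
  obtain ⟨s, -, hs⟩ := hprim.eq_pow_of_pow_eq_one (GalAvg.zeta_pow_card p)
  refine ⟨hgt, (w : P) ^ s, ?_, fun t => ?_⟩
  · rw [← pow_mul, mul_comm, pow_mul, hwp, one_pow]
  · rw [← pow_mul, hval', pow_mul, hs]

/-- An element of order `p ≥ 7` with the two eigenvalues `1` and `ζ` commutes with all its
conjugates. -/
theorem commute_conj_of_two_eigen {p : ℕ} [hp : Fact p.Prime] (h7 : 7 ≤ p) {n : ℕ}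
    (ρ : Representation ℂ G (Fin n → ℂ)) (hinj : ∀ g, ρ g = 1 → g = 1) {z : G} {m : ℕ}
    (hzp : z ^ p = 1)
    (hz : ∀ t : ℕ, ρ.character (z ^ t) = (m : ℂ) + (p : ℂ) * GalAvg.zeta p ^ t) (g : G) :
    z * (g * z * g⁻¹) = g * z * g⁻¹ * z := by
  classical
  haveI : NeZero p := ⟨hp.out.ne_zero⟩
  set ζ := GalAvg.zeta p with hζ
  have hprim := GalAvg.zeta_spec p
  obtain ⟨b, ε, hb, hε⟩ := Char.exists_eigenbasis ρ z
  have hpow := Char.character_pow_eq_sum ρ hb
  have hεp : ∀ i, ε i ^ p = 1 := fun i => by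
    obtain ⟨c, hc⟩ := orderOf_dvd_of_pow_eq_one hzp
    rw [hc, pow_mul, hε, one_pow]
  have hsum : ∀ y : ℂ, y ^ p = 1 →
      ∑ t ∈ Finset.range p, y ^ t = if y = 1 then (p : ℂ) else 0 := fun y hy => by
    split_ifs with h
    · simp [h]
    · rw [geom_sum_eq h, hy, sub_self, zero_div]
  have hval : ∀ i, ε i = 1 ∨ ε i = ζ := by
    intro i
    by_contra hcon
    push Not at hcon
    set η := ε i with hη
    have hη0 : η ≠ 0 := fun h => by
      have h1 := hεp i
      rw [← hη, h, zero_pow hp.out.ne_zero] at h1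
      exact zero_ne_one h1
    have hroot : ∀ y : ℂ, y ^ p = 1 → (y / η) ^ p = 1 := fun y hy => by
      rw [div_pow, hy, hη, hεp, div_one]
    have h1 : ∑ t ∈ Finset.range p, ρ.character (z ^ t) / η ^ t = 0 := by
      have e : ∀ t : ℕ, ρ.character (z ^ t) / η ^ t =
          (m : ℂ) * (1 / η) ^ t + (p : ℂ) * (ζ / η) ^ t := fun t => by
        rw [hz, div_pow, div_pow, one_pow]; ring
      rw [Finset.sum_congr rfl fun t _ => e t, Finset.sum_add_distrib, ← Finset.mul_sum,
        ← Finset.mul_sum, hsum _ (hroot _ (one_pow p)), hsum _ (hroot _ hprim.pow_eq_one),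
        if_neg (fun h => hcon.1 ((div_eq_one_iff_eq hη0).1 h).symm),
        if_neg (fun h => hcon.2 ((div_eq_one_iff_eq hη0).1 h).symm)]
      simp
    have h2 : ∑ t ∈ Finset.range p, ρ.character (z ^ t) / η ^ t =
        ∑ j, if ε j / η = 1 then (p : ℂ) else 0 := by
      simp only [hpow, Finset.sum_div]
      rw [Finset.sum_comm]
      refine Finset.sum_congr rfl fun j _ => ?_
      rw [← hsum _ (hroot _ (hεp j))]
      exact Finset.sum_congr rfl fun t _ => by rw [div_pow]
    rw [h1, Finset.sum_ite, Finset.sum_const_zero, add_zero, Finset.sum_const, nsmul_eq_mul] at h2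
    have h3 := (mul_eq_zero.1 h2.symm).resolve_right (Nat.cast_ne_zero.2 hp.out.ne_zero)
    rw [Nat.cast_eq_zero, Finset.card_eq_zero, Finset.filter_eq_empty_iff] at h3
    exact h3 (Finset.mem_univ i) (by rw [← hη]; exact div_self hη0)
  have hclose : ‖ζ - 1‖ < 1 := by
    have e : ζ = Complex.exp (((2 * Real.pi / p : ℝ) : ℂ) * Complex.I) := by
      rw [hζ, GalAvg.zeta]; congr 1; push_cast; ring
    rw [e]
    refine norm_exp_sub_one_lt ?_
    have hπ := Real.pi_pos
    have hpR : (7 : ℝ) ≤ p := by exact_mod_cast h7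
    rw [abs_of_pos (by positivity), div_lt_iff₀ (by linarith)]
    nlinarith
  have heig : ∀ (v : Fin n → ℂ) (μ : ℂ), v ≠ 0 → ρ z v = μ • v → μ = 1 ∨ μ = ζ := by
    intro v μ hv hvμ
    obtain ⟨l, hl⟩ : ∃ l, b.repr v l ≠ 0 := by
      by_contra h0
      push Not at h0
      exact hv (b.repr.map_eq_zero_iff.1 (Finsupp.ext h0))
    have h1 : ρ z v = ∑ k, (ε k * b.repr v k) • b k := by
      conv_lhs => rw [← b.sum_repr v]
      rw [map_sum]
      exact Finset.sum_congr rfl fun k _ => by rw [map_smul, hb, smul_smul, mul_comm]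
    have h2 := congrArg (fun w => b.repr w l) (h1.symm.trans hvμ)
    simp only [b.repr_sum_self, map_smul, Finsupp.smul_apply, smul_eq_mul] at h2
    rw [← mul_right_cancel₀ hl h2]
    exact hval l
  have hnorm : ‖ζ‖ = 1 := Complex.norm_eq_one_of_pow_eq_one hprim.pow_eq_one hp.out.ne_zero
  set w := g * z * g⁻¹ with hw
  refine commutatorElement_eq_one_iff_mul_comm.1 (hinj _ ?_)
  have hcomm : ρ z * ρ w = ρ w * ρ z := by
    refine b.ext fun i => ?_
    rw [Module.End.mul_apply, Module.End.mul_apply, hb, map_smul, hw]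
    rcases hval i with h | h
    · refine eigenspace_invariant_conj ρ z (ε i) (by rw [h, norm_one]) ?_ g _ (hb i)
      intro v μ hv hvμ
      rcases heig v μ hv hvμ with rfl | rfl
      · rw [h]; simp
      · rw [h]; exact hclose
    · refine eigenspace_invariant_conj ρ z (ε i) (by rw [h, hnorm]) ?_ g _ (hb i)
      intro v μ hv hvμ
      rcases heig v μ hv hvμ with rfl | rfl
      · rw [h, norm_sub_rev]; exact hclose
      · rw [h]; simp
  rw [commutatorElement_def, map_mul, map_mul, map_mul, hcomm, mul_assoc (ρ w), ← map_mul ρ z z⁻¹,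
    mul_inv_cancel, map_one, mul_one, ← map_mul, mul_inv_cancel, map_one]

/-- The monomial step: an abelian normal subgroup containing an element with two eigenvalues of
coprime multiplicities gives an abelian normal subgroup of index dividing `n!`. -/
theorem exists_abelian_of_two_eigen {p : ℕ} [hp : Fact p.Prime] {χ : G → ℂ}
    (hχ : IsIrrCharacter G χ) (hf : Faithful χ) {n : ℕ} (hn : charDegree χ = n) (hgt : p < n)
    (hlt : n < 2 * p) (N : Subgroup G) [N.Normal] (hN : ∀ a ∈ N, ∀ b ∈ N, a * b = b * a) {z : G}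
    (hzN : z ∈ N) (hzp : z ^ p = 1)
    (hz : ∀ t : ℕ, χ (z ^ t) = ((n - p : ℕ) : ℂ) + (p : ℂ) * GalAvg.zeta p ^ t) :
    ∃ A : Subgroup G, A.Normal ∧ (∀ a ∈ A, ∀ b ∈ A, a * b = b * a) ∧ A.index ∣ n.factorial := by
  classical
  haveI : NeZero p := ⟨hp.out.ne_zero⟩
  letI := Fintype.ofFinite G
  letI := Fintype.ofFinite N
  have hcG := Char.isCharacter_of_irr hχ
  have hNc : ∀ a b : N, a * b = b * a := fun a b => Subtype.ext (hN a a.2 b b.2)
  obtain ⟨φ, e₀, he₀, hφ⟩ := Char.exists_irr_constituent (Char.isCharacter_restrict hcG N)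
    fun h => Char.irr_one_ne_zero hχ (congrFun h 1)
  obtain ⟨e, he, -, hres, hdeg⟩ := CharExt.clifford_data N hχ φ.2
    (by rw [hφ]; exact Nat.cast_ne_zero.2 he₀.ne')
  have hφ1 := Char.irr_degree_one_of_comm hNc φ.2
  set T := CharExt.inertia N (φ : N → ℂ) with hT
  rw [hφ1, mul_one, apply_one hcG, hn] at hdeg
  have hdegN : n = e * T.index := by exact_mod_cast hdeg
  set O := CharInd.conjClass N (φ : N → ℂ) with hO
  have hOirr : ∀ ψ ∈ O, IsIrrCharacter N ψ := fun ψ hψ => by
    obtain ⟨x, rfl⟩ := (CharInd.mem_conjClass N).1 hψ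
    exact CharInd.conjChar_irr N x φ.2
  have hvalN : ∀ y : N, χ (y : G) = (e : ℂ) * ∑ ψ ∈ O, ψ y := fun y => by
    have := congrFun hres y
    simpa [Finset.sum_apply] using this
  have hsum : ∀ y : ℂ, y ^ p = 1 →
      ∑ t ∈ Finset.range p, y ^ t = if y = 1 then (p : ℂ) else 0 := fun y hy => by
    split_ifs with h
    · simp [h]
    · rw [geom_sum_eq h, hy, sub_self, zero_div]
  have hζ1 : GalAvg.zeta p ≠ 1 := (GalAvg.zeta_spec p).ne_one hp.out.one_lt
  have hem : e ∣ n - p := by
    have h1 : ∑ t ∈ Finset.range p, χ (z ^ t) = (p : ℂ) * ((n - p : ℕ) : ℂ) := by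
      simp only [hz, Finset.sum_add_distrib, Finset.sum_const, Finset.card_range, nsmul_eq_mul,
        ← Finset.mul_sum, hsum _ (GalAvg.zeta_pow_card p), if_neg hζ1, mul_zero, add_zero]
    have h2 : ∀ ψ ∈ O, ∃ j : ℕ, ∑ t ∈ Finset.range p, ψ ((⟨z, hzN⟩ : N) ^ t) = (p : ℂ) * j := by
      intro ψ hψ
      obtain ⟨f, hf'⟩ := Char.exists_monoidHom_of_degree_one
        (Char.isCharacter_of_irr (hOirr ψ hψ)) (Char.irr_degree_one_of_comm hNc (hOirr ψ hψ))
      have hy : ((f ⟨z, hzN⟩ : ℂˣ) : ℂ) ^ p = 1 := by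
        rw [← Units.val_pow_eq_pow_val, ← map_pow, show (⟨z, hzN⟩ : N) ^ p = 1 from
          Subtype.ext hzp, map_one, Units.val_one]
      simp only [hf', map_pow, Units.val_pow_eq_pow_val, hsum _ hy]
      split_ifs
      · exact ⟨1, by simp⟩
      · exact ⟨0, by simp⟩
    choose j hj using h2
    have h3 : (p : ℂ) * ((n - p : ℕ) : ℂ) = (p : ℂ) * ((e * ∑ ψ ∈ O.attach, j ψ.1 ψ.2 : ℕ) : ℂ) := by
      rw [← h1, Finset.sum_congr rfl (g := fun t => (e : ℂ) * ∑ ψ ∈ O, ψ ((⟨z, hzN⟩ : N) ^ t))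
          fun t _ => by rw [← hvalN]; rfl, ← Finset.mul_sum, Finset.sum_comm,
        ← Finset.sum_attach, Finset.sum_congr rfl fun ψ _ => hj ψ.1 ψ.2, ← Finset.mul_sum,
        Nat.cast_mul, Nat.cast_sum]
      ring
    exact ⟨_, Nat.cast_inj.1 (mul_left_cancel₀ (Nat.cast_ne_zero.2 hp.out.ne_zero) h3)⟩
  have he1 : e = 1 := by
    have h1 : e ∣ p := by
      have := Nat.dvd_sub (Dvd.intro T.index hdegN.symm) hem
      rwa [show n - (n - p) = p by omega] at this
    refine (hp.out.eq_one_or_self_of_dvd e h1).resolve_right fun h => ?_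
    have := Nat.le_of_dvd (by omega) hem
    omega
  subst he1
  rw [one_mul] at hdegN
  simp only [Nat.cast_one, one_mul] at hvalN
  refine ⟨T.normalCore, inferInstance, ?_, hdegN ▸ Suborbit.index_normalCore_dvd T⟩
  set A := T.normalCore with hA
  -- `N` is central in `A`
  have hcen : ∀ a ∈ A, ∀ y ∈ N, a * y = y * a := by
    intro a ha y hy
    have hc : a * y * a⁻¹ * y⁻¹ = 1 := by
      refine hf _ ?_
      have hmem : a * y * a⁻¹ * y⁻¹ ∈ N :=
        N.mul_mem (‹N.Normal›.conj_mem y hy a) (N.inv_mem hy)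
      rw [show a * y * a⁻¹ * y⁻¹ = ((⟨_, hmem⟩ : N) : G) from rfl, hvalN,
        show (1 : G) = ((1 : N) : G) from rfl, hvalN]
      refine Finset.sum_congr rfl fun ψ hψ => ?_
      obtain ⟨x, hx⟩ := (CharInd.mem_conjClass N).1 hψ
      obtain ⟨f, hf'⟩ := Char.exists_monoidHom_of_degree_one
        (Char.isCharacter_of_irr (hOirr ψ hψ)) (Char.irr_degree_one_of_comm hNc (hOirr ψ hψ))
      have hfix : CharInd.conjChar N a ψ = ψ := by
        have h1 : x * a * x⁻¹ ∈ T := Subgroup.normalCore_le T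
          ((Subgroup.normalCore_normal T).conj_mem a ha x)
        rw [hT, CharExt.mem_inertia] at h1
        rw [hx, ← CharInd.conjChar_mul, show x * a = (x * a * x⁻¹) * x by group,
          CharInd.conjChar_mul, h1]
      have h2 := congrFun hfix ⟨y, hy⟩
      rw [CharInd.conjChar_eq_comp] at h2
      simp only [hf', MulEquiv.coe_toMonoidHom] at h2
      have e1 : (⟨a * y * a⁻¹ * y⁻¹, hmem⟩ : N) =
          MulAut.conjNormal (H := N) a ⟨y, hy⟩ * (⟨y, hy⟩ : N)⁻¹ := Subtype.ext (by simp)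
      rw [e1, hf', hf', map_mul, Units.ext h2, ← map_mul, mul_inv_cancel, map_one]
    calc a * y = (a * y * a⁻¹ * y⁻¹) * (y * a) := by group
      _ = y * a := by rw [hc, one_mul]
  have hNA : N ≤ A := by
    rw [hA, Subgroup.normal_le_normalCore]
    exact CharExt.le_inertia N (Char.irr_isClassFunction φ.2)
  -- the restriction to `A` is a sum of linear characters
  letI := Fintype.ofFinite A
  obtain ⟨μ, hμ, -⟩ := Char.isCharacter_exists_coeff (Char.isCharacter_restrict hcG A)
  have hval : ∀ a : A, χ (a : G) = ∑ ξ : IrrCharacter A, (μ ξ : ℂ) * (ξ : A → ℂ) a := fun a => by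
    have := congrFun hμ a
    simpa [Finset.sum_apply] using this
  have hlin : ∀ ξ : IrrCharacter A, μ ξ ≠ 0 → charDegree (ξ : A → ℂ) = 1 := by
    intro ξ hξ
    let ι : N →* A := Subgroup.inclusion hNA
    have hres' : ∀ y : N, χ (y : G) = ∑ η : IrrCharacter A, (μ η : ℂ) * (η : A → ℂ) (ι y) :=
      fun y => hval (ι y)
    -- on `N` the character `ξ` is a multiple of one linear character
    obtain ⟨m, ρ, hρ, hρξ⟩ := ξ.2
    haveI := hρ
    haveI := Char.nontrivial_of_isIrreducible ρ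
    have hcenA : ∀ y : N, ι y ∈ Subgroup.center A := fun y => by
      rw [Subgroup.mem_center_iff]
      exact fun a => Subtype.ext (hcen a a.2 y y.2)
    choose ω hω using fun y : N => Char.exists_smul_of_mem_center ρ (hcenA y)
    have hω' : ∀ y : N, (ξ : A → ℂ) (ι y) = (m : ℂ) * ω y := fun y => by
      rw [← hρξ]
      simp [Representation.character, hω, mul_comm]
    have hm : charDegree (ξ : A → ℂ) = m := by
      simp [charDegree, ← hρξ, Representation.char_one]
    rw [hm]
    have hm0 : 0 < m := by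
      rw [← hm]
      obtain ⟨d, hd, hd'⟩ := Char.irr_one_pos ξ.2
      simpa [charDegree, hd'] using hd
    obtain ⟨ψ, k, hk, hψ⟩ := Char.exists_irr_constituent
      (Char.isCharacter_comp (Char.isCharacter_of_irr ξ.2) ι) fun h => by
        have h1 := congrFun h 1
        simp only [Function.comp_apply, map_one, Pi.zero_apply] at h1
        exact Char.irr_one_ne_zero ξ.2 h1
    obtain ⟨f, hf'⟩ := Char.exists_monoidHom_of_degree_one
      (Char.isCharacter_of_irr ψ.2) (Char.irr_degree_one_of_comm hNc ψ.2)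
    have hωm : ∀ y₁ y₂ : N, ω (y₁ * y₂) = ω y₁ * ω y₂ := fun y₁ y₂ => by
      have h1 := hω (y₁ * y₂)
      rw [map_mul, map_mul, hω, hω, smul_mul_smul_comm, ← Module.End.one_eq_id, one_mul] at h1
      exact (smul_left_injective ℂ (one_ne_zero (α := Module.End ℂ (Fin m → ℂ))) h1).symm
    have hω1 : ω 1 = 1 := by
      have h1 := hω 1
      rw [map_one, map_one, ← Module.End.one_eq_id] at h1
      exact smul_left_injective ℂ (one_ne_zero (α := Module.End ℂ (Fin m → ℂ)))
        (h1.symm.trans (one_smul ℂ _).symm)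
    let W : N →* ℂ := { toFun := ω, map_one' := hω1, map_mul' := hωm }
    have hWirr : IsIrrCharacter N fun y => ω y := by
      refine Char.isIrrCharacter_monoidHom W.toHomUnits |> fun h => ?_
      simpa [W] using h
    set ψ' : IrrCharacter N := ⟨fun y => ω y, hWirr⟩
    have hmult : classInner (fun y : N => (ξ : A → ℂ) (ι y)) (ψ' : N → ℂ) = (m : ℂ) := by
      rw [show (fun y : N => (ξ : A → ℂ) (ι y)) = (m : ℂ) • (ψ' : N → ℂ) from funext hω',
        Char.classInner_smul_left, Char.classInner_irr_self ψ'.2, mul_one]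
    choose c hc using fun η : IrrCharacter A => Char.isCharacter_classInner_nat
      (Char.isCharacter_comp (Char.isCharacter_of_irr η.2) ι) ψ'
    have hbig : classInner (fun y : N => χ y) (ψ' : N → ℂ) = ((∑ η, μ η * c η : ℕ) : ℂ) := by
      rw [show (fun y : N => χ y) = ∑ η : IrrCharacter A,
          (μ η : ℂ) • (fun y : N => (η : A → ℂ) (ι y)) from
        funext fun y => by rw [hres' y]; simp [Finset.sum_apply], Char.classInner_sum_left]
      push_cast
      exact Finset.sum_congr rfl fun η _ => by rw [Char.classInner_smul_left, ← hc]; rfl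
    have hsmall : classInner (fun y : N => χ y) (ψ' : N → ℂ) =
        if (ψ' : N → ℂ) ∈ O then 1 else 0 := by
      rw [show (fun y : N => χ y) = ∑ ψ ∈ O, ψ from
        funext fun y => by rw [hvalN y]; simp [Finset.sum_apply], Char.classInner_sum_left]
      split_ifs with h
      · rw [Finset.sum_eq_single (ψ' : N → ℂ), Char.classInner_irr_self ψ'.2]
        · exact fun η hη hne => Char.classInner_irr_ne (hOirr η hη) ψ'.2 hne
        · exact fun h' => absurd h h'
      · exact Finset.sum_eq_zero fun η hη =>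
          Char.classInner_irr_ne (hOirr η hη) ψ'.2 fun he => h (he ▸ hη)
    have hcξ : c ξ = m := by
      have := (hc ξ).symm.trans (show classInner ((ξ : A → ℂ) ∘ ι) (ψ' : N → ℂ) = (m : ℂ) from hmult)
      exact_mod_cast this
    have hle : μ ξ * m ≤ ∑ η, μ η * c η := by
      rw [← hcξ]
      exact Finset.single_le_sum (f := fun η => μ η * c η) (fun _ _ => Nat.zero_le _)
        (Finset.mem_univ ξ)
    have h2 : (∑ η, μ η * c η) ≤ 1 := by
      rw [hsmall] at hbig
      split_ifs at hbig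
      · exact le_of_eq (by exact_mod_cast hbig.symm)
      · have : (∑ η, μ η * c η) = 0 := by exact_mod_cast hbig.symm
        omega
    have h3 : m ≤ μ ξ * m := Nat.le_mul_of_pos_left _ (Nat.pos_of_ne_zero hξ)
    omega
  intro a ha b hb
  have hc : a * b * a⁻¹ * b⁻¹ = 1 := by
    refine hf _ ?_
    let a' : A := ⟨a, ha⟩
    let b' : A := ⟨b, hb⟩
    rw [show a * b * a⁻¹ * b⁻¹ = ((a' * b' * a'⁻¹ * b'⁻¹ : A) : G) from rfl, hval,
      show (1 : G) = ((1 : A) : G) from rfl, hval]
    refine Finset.sum_congr rfl fun ξ _ => ?_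
    by_cases h : μ ξ = 0
    · simp [h]
    obtain ⟨f, hf'⟩ := Char.exists_monoidHom_of_degree_one (Char.isCharacter_of_irr ξ.2)
      (by rw [apply_one (Char.isCharacter_of_irr ξ.2), hlin ξ h, Nat.cast_one])
    simp only [hf', map_mul, map_inv, map_one, mul_comm (f a') (f b'), mul_inv_cancel_right,
      mul_inv_cancel]
  calc a * b = (a * b * a⁻¹ * b⁻¹) * (b * a) := by group
    _ = b * a := by rw [hc, one_mul]

/-- For `p ≥ 7`, a faithful irreducible character of degree below `2 p` other than `p` and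
non-abelian Sylow `p`-subgroups, the index of `O_p` has `p`-part at most `p`. -/
theorem not_sq_dvd_index_pCore {p : ℕ} [hp : Fact p.Prime] (h7 : 7 ≤ p) {χ : G → ℂ}
    (hχ : IsIrrCharacter G χ) (hf : Faithful χ) (hn2 : charDegree χ < 2 * p)
    (hnp : charDegree χ ≠ p)
    (hna : ∃ P : Sylow p G, ∃ x ∈ (P : Subgroup G), ∃ y ∈ (P : Subgroup G), x * y ≠ y * x) :
    ¬ p ^ 2 ∣ (pCore p G).index := by
  classical
  haveI : NeZero p := ⟨hp.out.ne_zero⟩
  obtain ⟨P, x, hx, y, hy, hxy⟩ := hna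
  obtain ⟨hgt, z, hzp, hz⟩ := exists_two_eigen P.2
    (Char.isCharacter_restrict (Char.isCharacter_of_irr hχ) (P : Subgroup G)) (hf.res _)
    (by rw [charDegree_res]; exact hn2) (by rw [charDegree_res]; exact hnp)
    ⟨⟨x, hx⟩, ⟨y, hy⟩, fun h => hxy (congrArg Subtype.val h)⟩
  rw [charDegree_res] at hgt hz
  set n := charDegree χ with hn
  obtain ⟨k, ρ, hρ, hρχ⟩ := hχ
  have hzG : ∀ t : ℕ, ρ.character ((z : G) ^ t) =
      ((n - p : ℕ) : ℂ) + (p : ℂ) * GalAvg.zeta p ^ t := fun t => by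
    rw [hρχ, ← SubgroupClass.coe_pow]; exact hz t
  have hzG1 : (z : G) ^ p = 1 := by rw [← SubgroupClass.coe_pow, hzp]; rfl
  have hinj : ∀ g, ρ g = 1 → g = 1 := fun g hg => hf g (by
    rw [← hρχ]; simp [Representation.character, hg, map_one])
  have hall : ∀ a ∈ Group.conjugatesOfSet ({(z : G)} : Set G),
      ∀ b ∈ Group.conjugatesOfSet ({(z : G)} : Set G), a * b = b * a := by
    intro a ha b hb
    obtain ⟨w, hw, hwa⟩ := Group.mem_conjugatesOfSet_iff.1 ha
    obtain rfl := Set.mem_singleton_iff.1 hw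
    obtain ⟨g, rfl⟩ := isConj_iff.1 hwa
    obtain ⟨w, hw, hwb⟩ := Group.mem_conjugatesOfSet_iff.1 hb
    obtain rfl := Set.mem_singleton_iff.1 hw
    obtain ⟨h, rfl⟩ := isConj_iff.1 hwb
    have h1 := congrArg (MulAut.conj g) (commute_conj_of_two_eigen h7 ρ hinj hzG1 hzG (g⁻¹ * h))
    simpa [map_mul, mul_assoc] using h1
  set N := Subgroup.normalClosure ({(z : G)} : Set G) with hN
  have hNc : ∀ a ∈ N, ∀ b ∈ N, a * b = b * a := by
    have h1 : N ≤ Subgroup.centralizer (Group.conjugatesOfSet ({(z : G)} : Set G)) :=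
      (Subgroup.closure_le _).2 fun a ha => Subgroup.mem_centralizer_iff.2 fun b hb => hall b hb a ha
    have h2 : N ≤ Subgroup.centralizer (N : Set G) := by
      refine (Subgroup.closure_le _).2 fun a ha => Subgroup.mem_centralizer_iff.2 fun b hb => ?_
      exact (Subgroup.mem_centralizer_iff.1 (h1 hb) a ha).symm
    exact fun a ha b hb => (Subgroup.mem_centralizer_iff.1 (h2 ha) b hb).symm
  haveI : N.Normal := Subgroup.normalClosure_normal
  obtain ⟨A, hAn, hAc, hAi⟩ := exists_abelian_of_two_eigen (⟨k, ρ, hρ, hρχ⟩ : IsIrrCharacter G χ)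
    hf hn.symm hgt hn2 N hNc (Subgroup.subset_normalClosure (Set.mem_singleton _)) hzG1
    (fun t => by rw [← hρχ]; exact hzG t)
  haveI := hAn
  obtain ⟨PA⟩ := (inferInstance : Nonempty (Sylow p A))
  have hPA : (PA : Subgroup A).Normal := ⟨fun a ha g => by
    have h1 : g * a = a * g := Subtype.ext (hAc g g.2 a a.2)
    rw [h1, mul_inv_cancel_right]; exact ha⟩
  have h1 := p_part_le_of_normal PA hPA
  intro hdvd
  have h2 := (hp.out.pow_dvd_iff_le_factorization Subgroup.index_ne_zero_of_finite).1 hdvd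
  have hAfac : A.index.factorization p ≤ 1 := by
    have h3 := (Nat.factorization_le_iff_dvd Subgroup.index_ne_zero_of_finite
      n.factorial_pos.ne').2 hAi p
    have h4 : n.factorial.factorization p ≤ 1 := by
      by_contra h4
      have h5 := (hp.out.pow_dvd_iff_le_factorization n.factorial_pos.ne').2 (by omega : 2 ≤ _)
      rw [Nat.Prime.pow_dvd_factorial_iff hp.out (b := 2) (by
        have := h7
        exact Nat.log_lt_of_lt_pow (by omega) (by nlinarith))] at h5
      have h6 : n / p < 2 := (Nat.div_lt_iff_lt_mul hp.out.pos).2 hn2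
      simp at h5
      omega
    omega
  have h5 := congrArg (fun a => a.factorization p) (Subgroup.card_mul_index A)
  have h6 := congrArg (fun a => a.factorization p) (Subgroup.card_mul_index (pCore p G))
  simp only [Nat.factorization_mul Nat.card_pos.ne' Subgroup.index_ne_zero_of_finite,
    Finsupp.add_apply] at h5 h6
  omega

end Cfsg.Agent.LinearBound
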