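import Cfsg.Agent.LinearBound.Tools
import Cfsg.Agent.MaxSub.Dickson.Cases
import Cfsg.Agent.CharInd.Induced

/-!
# Primitive linear groups of degree two
-/

set_option autoImplicit false
set_option linter.style.haveILetI false

open Cfsg Module MulAction

namespace Cfsg.Agent.LinearBound

universe u

variable {G : Type u} [Group G]

/-- The lines of a representation space. -/
abbrev Line (V : Type*) [AddCommGroup V] [Module ℂ V] : Type _ :=
  {L : Submodule ℂ V // finrank ℂ L = 1}

variable {n : ℕ}

/-- The action on lines. -/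
@[reducible]
noncomputable def lineAction (ρ : Representation ℂ G (Fin n → ℂ)) :
    MulAction G (Line (Fin n → ℂ)) where
  smul g L := ⟨L.1.map (ρ g), by
    have hinj : Function.Injective (ρ g) := fun v w h => by
      have := congrArg (ρ g⁻¹) h
      rwa [← Module.End.mul_apply, ← Module.End.mul_apply, ← map_mul, inv_mul_cancel, map_one] at this
    rw [← (Submodule.equivMapOfInjective (ρ g) hinj L.1).finrank_eq]
    exact L.2⟩
  one_smul L := Subtype.ext (show L.1.map (ρ 1) = L.1 by
    rw [map_one, Module.End.one_eq_id, Submodule.map_id])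
  mul_smul g h L := Subtype.ext (show L.1.map (ρ (g * h)) = (L.1.map (ρ h)).map (ρ g) by
    rw [map_mul, Module.End.mul_eq_comp, Submodule.map_comp])

theorem line_eq_span {V : Type*} [AddCommGroup V] [Module ℂ V] (L : Line V) :
    ∃ v : V, v ≠ 0 ∧ L.1 = ℂ ∙ v := by
  haveI : FiniteDimensional ℂ L.1 := Module.finite_of_finrank_eq_succ L.2
  obtain ⟨v, hv, hspan⟩ := finrank_eq_one_iff'.1 L.2
  refine ⟨v.1, fun h => hv (Subtype.ext h), le_antisymm (fun w hw => ?_) ?_⟩
  · obtain ⟨c, hc⟩ := hspan ⟨w, hw⟩
    exact Submodule.mem_span_singleton.2 ⟨c, congrArg Subtype.val hc⟩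
  · rw [Submodule.span_singleton_le_iff_mem]
    exact v.2

/-- A faithful primitive irreducible character of degree two: the centre has index 12, 24 or 60. -/
theorem center_index_of_primitive [Fintype G] {χ : G → ℂ} (hχ : IsIrrCharacter G χ)
    (hf : Faithful χ) (h2 : charDegree χ = 2)
    (hprim : ∀ H : Subgroup G, H ≠ ⊤ → ∀ θ : H → ℂ, IsCharacter H θ → χ ≠ indFun H θ) :
    (Subgroup.center G).index = 12 ∨ (Subgroup.center G).index = 24 ∨
      (Subgroup.center G).index = 60 := by
  classical
  obtain ⟨m, ρ, hρ, rfl⟩ := hχ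
  have hm : m = 2 := by rw [← h2]; simp [charDegree, Representation.char_one]
  subst hm
  haveI := hρ
  have hV : finrank ℂ (Fin 2 → ℂ) = 2 := by simp
  obtain ⟨hVnt, hirr⟩ := (Char.isIrreducible_iff_forall ρ).1 inferInstance
  have hinjρ : Function.Injective ρ := by
    intro a b hab
    refine mul_inv_eq_one.1 (hf _ ?_)
    have : ρ (a * b⁻¹) = ρ 1 := by rw [map_mul, hab, ← map_mul, mul_inv_cancel]
    simp [Representation.character, this]
  letI act := lineAction ρ
  have hsmul : ∀ (g : G) (L : Line (Fin 2 → ℂ)), (g • L).1 = L.1.map (ρ g) := fun g L => rfl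
  -- central elements fix every line, others exactly two
  have hcent : ∀ z ∈ Subgroup.center G, ∀ L : Line (Fin 2 → ℂ), z • L = L := by
    intro z hz L
    obtain ⟨ω, hω⟩ := Char.exists_smul_of_mem_center ρ hz
    obtain ⟨v, hv, hL⟩ := line_eq_span L
    refine Subtype.ext ?_
    have hω0 : ω ≠ 0 := fun h => by
      have h1 : ρ z⁻¹ (ρ z v) = v := by
        rw [← Module.End.mul_apply, ← map_mul, inv_mul_cancel, map_one, Module.End.one_apply]
      rw [hω, h] at h1
      exact hv (by simpa using h1.symm)
    rw [hsmul, hL, Submodule.map_span, Set.image_singleton, hω, LinearMap.smul_apply,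
      LinearMap.id_apply]
    exact Submodule.span_singleton_smul_eq (IsUnit.mk0 ω hω0) v
  have htwo : ∀ g, g ∉ Subgroup.center G → ∃ a b : Line (Fin 2 → ℂ), a ≠ b ∧ g • a = a ∧
      g • b = b ∧ ∀ c, g • c = c → c = a ∨ c = b := by
    intro g hg
    obtain ⟨b₀, ε₀, hb₀, hε₀⟩ := Char.exists_eigenbasis ρ g
    let b := b₀.reindex (finCongr hV)
    let ε := fun i : Fin 2 => ε₀ ((finCongr hV).symm i)
    have hb : ∀ i, ρ g (b i) = ε i • b i := fun i => by
      simp only [b, ε, Basis.reindex_apply]; exact hb₀ _
    have hε : ∀ i, ε i ≠ 0 := fun i h => by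
      have h1 := hε₀ ((finCongr hV).symm i)
      rw [show ε₀ ((finCongr hV).symm i) = 0 from h,
        zero_pow (orderOf_pos g).ne'] at h1
      exact zero_ne_one h1
    have hne : ε 0 ≠ ε 1 := by
      intro heq
      apply hg
      have hsc : ρ g = ε 0 • (1 : Module.End ℂ (Fin 2 → ℂ)) := b.ext fun i => by
        rw [hb, LinearMap.smul_apply, Module.End.one_apply]
        fin_cases i
        · rfl
        · simp [heq]
      rw [Subgroup.mem_center_iff]
      intro x
      apply hinjρ
      rw [map_mul, map_mul, hsc, mul_smul_comm, smul_mul_assoc, mul_one, one_mul]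
    let line : Fin 2 → Line (Fin 2 → ℂ) := fun i =>
      ⟨ℂ ∙ b i, finrank_span_singleton (b.ne_zero i)⟩
    have hfix : ∀ i, g • line i = line i := fun i => Subtype.ext (by
      rw [hsmul]
      show (ℂ ∙ b i).map (ρ g) = ℂ ∙ b i
      rw [Submodule.map_span, Set.image_singleton, hb]
      exact Submodule.span_singleton_smul_eq (IsUnit.mk0 _ (hε i)) _)
    refine ⟨line 0, line 1, fun h => ?_, hfix 0, hfix 1, fun c hc => ?_⟩
    · have e : ℂ ∙ b 0 = ℂ ∙ b 1 := congrArg Subtype.val h
      have h1 : b 0 ∈ ℂ ∙ b 1 := by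
        rw [← e]; exact Submodule.mem_span_singleton_self (b 0)
      obtain ⟨r, hr⟩ := Submodule.mem_span_singleton.1 h1
      have := congrArg (fun v => b.repr v 0) hr
      simp at this
    · obtain ⟨v, hv, hcv⟩ := line_eq_span c
      have h1 : ρ g v ∈ c.1 := by
        have h := congrArg Subtype.val hc
        rw [hsmul] at h
        rw [← h]
        exact Submodule.mem_map_of_mem (hcv ▸ Submodule.mem_span_singleton_self v)
      rw [hcv] at h1
      obtain ⟨μ, hμ⟩ := Submodule.mem_span_singleton.1 h1
      have hvsum := (b.sum_repr v).symm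
      rw [Fin.sum_univ_two] at hvsum
      have hgv : ρ g v = (b.repr v 0 * ε 0) • b 0 + (b.repr v 1 * ε 1) • b 1 := by
        conv_lhs => rw [hvsum]
        rw [map_add, map_smul, map_smul, hb, hb, smul_smul, smul_smul]
      have hcoef : ∀ i, μ * b.repr v i = b.repr v i * ε i := fun i => by
        have h := congrArg (fun w => b.repr w i) (hμ.trans hgv)
        simp only [map_add, map_smul, Finsupp.add_apply, Finsupp.smul_apply, Basis.repr_self,
          smul_eq_mul] at h
        fin_cases i <;> simpa using h
      rcases eq_or_ne (b.repr v 0) 0 with h0 | h0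
      · right
        refine Subtype.ext ?_
        show c.1 = ℂ ∙ b 1
        rw [h0, zero_smul, zero_add] at hvsum
        have h1 : b.repr v 1 ≠ 0 := fun h1 => hv (by rw [hvsum, h1, zero_smul])
        rw [hcv, hvsum]
        exact Submodule.span_singleton_smul_eq (IsUnit.mk0 _ h1) _
      · left
        have hμ0 : μ = ε 0 := mul_right_cancel₀ h0 ((hcoef 0).trans (mul_comm _ _))
        have h1 : b.repr v 1 = 0 := by
          by_contra h1
          exact hne (hμ0.symm.trans (mul_right_cancel₀ h1 ((hcoef 1).trans (mul_comm _ _))))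
        refine Subtype.ext ?_
        show c.1 = ℂ ∙ b 0
        rw [h1, zero_smul, add_zero] at hvsum
        rw [hcv, hvsum]
        exact Submodule.span_singleton_smul_eq (IsUnit.mk0 _ h0) _
  -- the action of the quotient by the centre
  set Z := Subgroup.center G with hZ
  let f : G ⧸ Z →* Equiv.Perm (Line (Fin 2 → ℂ)) :=
    QuotientGroup.lift Z (MulAction.toPermHom G (Line (Fin 2 → ℂ))) fun z hz =>
      MonoidHom.mem_ker.2 (Equiv.ext fun L => hcent z hz L)
  letI : MulAction (G ⧸ Z) (Line (Fin 2 → ℂ)) := MulAction.compHom _ f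
  have hmk : ∀ (g : G) (L : Line (Fin 2 → ℂ)), (g : G ⧸ Z) • L = g • L := fun g L => rfl
  obtain ⟨p, hpG, hp⟩ := Nat.exists_infinite_primes (Nat.card (G ⧸ Z) + 1)
  haveI := Fact.mk hp
  have hpdvd : ¬ p ∣ Nat.card (G ⧸ Z) := fun h => by
    have := Nat.le_of_dvd Nat.card_pos h
    omega
  have hpow : ∀ (x : G ⧸ Z) (k : ℕ), x ^ p ^ k = 1 → x = 1 := fun x k hx => by
    obtain ⟨i, -, hi⟩ := (Nat.dvd_prime_pow hp).1 (orderOf_dvd_of_pow_eq_one hx)
    rcases Nat.eq_zero_or_pos i with rfl | hi0
    · exact orderOf_eq_one_iff.1 (by simpa using hi)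
    · exact absurd ((dvd_pow_self p hi0.ne').trans (hi ▸ orderOf_dvd_natCard x)) hpdvd
  have hpow1 : ∀ x : G ⧸ Z, x ^ p = 1 → x = 1 := fun x hx => hpow x 1 (by rwa [pow_one])
  have hnot : ∀ g : G, (g : G ⧸ Z) ≠ 1 → g ∉ Z := fun g h hg =>
    h ((QuotientGroup.eq_one_iff g).2 hg)
  have hex : Nonempty (Line (Fin 2 → ℂ)) := by
    let e := Pi.basisFun ℂ (Fin 2)
    exact ⟨⟨ℂ ∙ e 0, finrank_span_singleton (e.ne_zero 0)⟩⟩
  have hR : MaxSub.Dickson.Rot p (G ⧸ Z) (Line (Fin 2 → ℂ)) := by
    refine ⟨fun x => ?_, fun x hx hxp => absurd (hpow1 x hxp) hx, fun x hx a ha => ?_,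
      fun x a b c hab hac hbc ha hb hc => ?_, fun x a _ n hx => by rw [hpow x n hx, one_pow],
      fun x y a _ _ hx hy => by rw [hpow1 x hx, hpow1 y hy]⟩
    · induction x using QuotientGroup.induction_on with
      | H g =>
        by_cases hg : g ∈ Z
        · exact hex.elim fun L => ⟨L, hcent g hg L⟩
        · obtain ⟨a, -, -, ha, -⟩ := htwo g hg
          exact ⟨a, ha⟩
    · induction x using QuotientGroup.induction_on with
      | H g =>
        obtain ⟨a', b', hab, ha', hb', hall⟩ := htwo g (hnot g fun h => hx (by rw [h, one_pow]))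
        rcases hall a ha with rfl | rfl
        · exact ⟨b', hab.symm, hb'⟩
        · exact ⟨a', hab, ha'⟩
    · induction x using QuotientGroup.induction_on with
      | H g =>
        by_contra hne1
        obtain ⟨a', b', -, -, -, hall⟩ := htwo g (hnot g hne1)
        rcases hall a ha with rfl | rfl <;> rcases hall b hb with rfl | rfl <;>
          rcases hall c hc with rfl | rfl <;>
          first
            | exact hab rfl
            | exact hac rfl
            | exact hbc rfl
  have hnofix : ∀ a : Line (Fin 2 → ℂ), ¬ ∀ g : G, g • a = a := by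
    intro a ha
    rcases hirr a.1 (fun g v hv => by
      have h := congrArg Subtype.val (ha g)
      rw [hsmul] at h
      rw [← h]
      exact Submodule.mem_map_of_mem hv) with h | h
    · have := a.2
      rw [h, finrank_bot] at this
      exact zero_ne_one this
    · have := a.2
      rw [h, finrank_top, hV] at this
      omega
  have hG1 : 1 < Nat.card (G ⧸ Z) := by
    by_contra hle
    haveI : Subsingleton (G ⧸ Z) := Finite.card_le_one_iff_subsingleton.1 (not_lt.1 hle)
    exact hex.elim fun L => hnofix L fun g =>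
      hcent g ((QuotientGroup.eq_one_iff g).1 (Subsingleton.elim _ _)) L
  rcases hR.outcome hG1 with ⟨⟨a, b, -, hab⟩, -⟩ | ⟨a, b, hab, horb, -, -, hcard⟩ | ⟨-, hdvd⟩ |
    ⟨-, hcard, -⟩ | ⟨y, P, k, hP, h4, -, -⟩
  · exact absurd (fun g : G => (hab (g : G ⧸ Z)).1) (hnofix a)
  · exfalso
    -- the stabiliser of the line `a` has index two and `χ` is induced from it
    set H := stabilizer G a with hH
    have horbG : orbit G a = {a, b} := by
      rw [← horb]
      ext L
      constructor
      · rintro ⟨g, rfl⟩; exact ⟨(g : G ⧸ Z), rfl⟩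
      · rintro ⟨x, rfl⟩
        induction x using QuotientGroup.induction_on with
        | H g => exact ⟨g, rfl⟩
    have hidx : H.index = 2 := by
      rw [hH, index_stabilizer, horbG, Set.ncard_pair hab]
    have hHtop : H ≠ ⊤ := fun h => by rw [h, Subgroup.index_top] at hidx; omega
    have hstab : ∀ (h : H) (v : Fin 2 → ℂ), v ∈ a.1 → ρ h v ∈ a.1 := fun h v hv => by
      have e := congrArg Subtype.val (mem_stabilizer_iff.1 h.2)
      rw [hsmul] at e
      rw [← e]
      exact Submodule.mem_map_of_mem hv
    let σ : Representation ℂ H (Fin 2 → ℂ) := ρ.comp H.subtype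
    let pa : Subrepresentation σ := ⟨a.1, fun h v hv => hstab h v hv⟩
    obtain ⟨q, hq⟩ := Char.exists_isCompl_subrep σ pa
    have hsum := Char.character_add_of_isCompl σ pa q hq
    set θ := pa.toRepresentation.character with hθdef
    have hθ : IsCharacter H θ := Char.isCharacter_character _
    have hθ1 : θ 1 = 1 := by
      rw [hθdef, Representation.char_one, show finrank ℂ pa.toSubmodule = 1 from a.2, Nat.cast_one]
    have hθirr : IsIrrCharacter H θ := by
      obtain ⟨f', hf'⟩ := Char.exists_monoidHom_of_degree_one hθ hθ1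
      rw [show θ = fun h => (f' h : ℂ) from funext hf']
      exact Char.isIrrCharacter_monoidHom f'
    have hχc : IsCharacter G ρ.character := ⟨2, ρ, rfl⟩
    have hχirr : IsIrrCharacter G ρ.character := ⟨2, ρ, inferInstance, rfl⟩
    letI := Fintype.ofFinite H
    have hind := CharInd.isCharacter_indFun H hθ
    have hinner : classInner (indFun H θ) ρ.character ≠ 0 := by
      have h1 := CharInd.classInner_indFun_left H θ (Char.isCharacter_isClassFunction hχc)
      have hres : (fun h : H => ρ.character h) = σ.character := rfl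
      obtain ⟨c, hc⟩ := Char.isCharacter_classInner_nat (Char.isCharacter_character q.toRepresentation)
        ⟨θ, hθirr⟩
      have hc' : classInner q.toRepresentation.character θ = (c : ℂ) := hc
      have h2 : classInner θ (fun h : H => ρ.character h) = ((1 + c : ℕ) : ℂ) := by
        rw [hres, hsum, Char.classInner_add_right, Char.classInner_irr_self hθirr,
          ← Char.classInner_conj, hc']
        simp
      rw [h1, h2]
      exact Nat.cast_ne_zero.2 (by omega)
    obtain ⟨c, hc⟩ := Char.isCharacter_classInner_nat hind ⟨_, hχirr⟩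
    have hc0 : 0 < c := Nat.pos_of_ne_zero fun h => hinner (by
      show classInner (indFun H θ) ((⟨_, hχirr⟩ : IrrCharacter G) : G → ℂ) = 0
      rw [hc, h, Nat.cast_zero])
    have hd := Char.isCharacter_sub_constituent hind hc0 hc
    refine hprim H hHtop θ hθ (funext fun g => ?_)
    have h0 : (indFun H θ - ρ.character) 1 = 0 := by
      rw [Pi.sub_apply, CharInd.indFun_one_apply, hθ1, hidx, Representation.char_one, hV]
      simp
    have := Char.isCharacter_norm_le hd g
    rw [h0, Complex.zero_re] at this
    exact (sub_eq_zero.1 (norm_le_zero_iff.1 this)).symm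
  · exact absurd hdvd hpdvd
  · exact hcard
  · exfalso
    have : P = ⊥ := (Subgroup.eq_bot_iff_forall P).2 fun g hg => hpow1 g ((hP g).1 hg).2
    rw [this, Subgroup.card_bot] at h4
    omega

end Cfsg.Agent.LinearBound
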