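import Cfsg.Agent.LinearBound.Monomial
import Cfsg.Agent.LinearBound.AbelianHall
import Cfsg.Agent.Jordan.AbelianIndex
import Mathlib.NumberTheory.PrimeCounting

/-!
# The explicit bound on the index of an abelian normal subgroup of a linear group
-/

set_option autoImplicit false
set_option linter.style.haveILetI false

open Cfsg

namespace Cfsg.Agent.LinearBound

universe u

variable {G : Type u} [Group G] [Finite G]

/-- A product of powers of distinct primes divides what each factor divides. -/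
theorem prod_dvd_of_prime_powers {s : Finset ℕ} (hs : ∀ p ∈ s, p.Prime) (f : ℕ → ℕ)
    (hf : ∀ p ∈ s, ∃ k, f p = p ^ k) {m : ℕ} (hm : ∀ p ∈ s, f p ∣ m) : (∏ p ∈ s, f p) ∣ m := by
  classical
  induction s using Finset.induction_on with
  | empty => simp
  | insert a s ha ih =>
    rw [Finset.prod_insert ha]
    refine Nat.Coprime.mul_dvd_of_dvd_of_dvd (Nat.Coprime.prod_right fun q hq => ?_)
      (hm a (Finset.mem_insert_self _ _))
      (ih (fun p hp => hs p (Finset.mem_insert_of_mem hp))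
        (fun p hp => hf p (Finset.mem_insert_of_mem hp))
        (fun p hp => hm p (Finset.mem_insert_of_mem hp)))
    obtain ⟨i, hi⟩ := hf a (Finset.mem_insert_self _ _)
    obtain ⟨j, hj⟩ := hf q (Finset.mem_insert_of_mem hq)
    rw [hi, hj]
    exact Nat.coprime_pow_primes i j (hs a (Finset.mem_insert_self _ _))
      (hs q (Finset.mem_insert_of_mem hq)) fun h => ha (h ▸ hq)

/-- For each prime there is an abelian subgroup of the Sylow subgroup of index dividing `n!`. -/
theorem exists_abelian_pSubgroup {χ : G → ℂ} (hχ : IsCharacter G χ) (hf : Faithful χ) {p : ℕ}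
    (hp : p.Prime) :
    ∃ (D : Subgroup G) (i : ℕ), (∀ x ∈ D, ∀ y ∈ D, x * y = y * x) ∧
      Nat.card D * i = p ^ (Nat.card G).factorization p ∧ i ∣ (charDegree χ).factorial := by
  haveI := Fact.mk hp
  obtain ⟨P⟩ := (inferInstance : Nonempty (Sylow p G))
  haveI : Group.IsNilpotent (P : Subgroup G) := P.2.isNilpotent
  obtain ⟨D, hD, hDi⟩ := exists_abelian_of_nilpotent
    (Char.isCharacter_restrict hχ (P : Subgroup G)) (hf.res _)
  refine ⟨D.map (P : Subgroup G).subtype, D.index, ?_, ?_, hDi⟩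
  · rintro _ ⟨x, hx, rfl⟩ _ ⟨y, hy, rfl⟩
    rw [← map_mul, ← map_mul, hD x hx y hy]
  · rw [Subgroup.card_map_of_injective (P : Subgroup G).subtype_injective,
      Subgroup.card_mul_index]
    exact P.card_eq_multiplicity

/-- The explicit form of Jordan's bound. -/
theorem exists_abelian_normal_index_le {χ : G → ℂ} (hχ : IsCharacter G χ) (hf : Faithful χ)
    {n : ℕ} (hn : charDegree χ = n) :
    ∃ A : Subgroup G, A.Normal ∧ (∀ x ∈ A, ∀ y ∈ A, x * y = y * x) ∧
      A.index ≤ n.factorial * 12 ^ (n * (Nat.primeCounting (n + 1) + 1)) := by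
  classical
  obtain ⟨A, hAn, hAab, hA⟩ : ∃ A : Subgroup G, A.Normal ∧ (∀ x ∈ A, ∀ y ∈ A, x * y = y * x) ∧
      ∀ H : Subgroup G, (∀ x ∈ H, ∀ y ∈ H, x * y = y * x) →
        (A.subgroupOf H).index ≤ 12 ^ n := by
    obtain ⟨m, ρ, rfl⟩ := hχ
    have hm : m = n := by
      rw [← hn]
      simp [Cfsg.charDegree, Representation.char_one]
    subst hm
    exact Jordan.exists_abelian_normal ρ fun g hg => hf g (by
      simp [Representation.character, hg, map_one])
  refine ⟨A, hAn, hAab, ?_⟩
  obtain ⟨H₀, hH₀⟩ := exists_abelian_hall n G χ hχ hf hn.le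
  set S := Nat.primesBelow (n + 2) with hS
  have hScard : S.card = Nat.primeCounting (n + 1) := by
    rw [hS, Nat.primesBelow_card_eq_primeCounting']
    rfl
  have hSp : ∀ p ∈ S, p.Prime := fun p hp => (Nat.mem_primesBelow.1 hp).2
  have hSle : ∀ p ∈ S, p ≤ n + 1 := fun p hp => by
    have := (Nat.mem_primesBelow.1 hp).1
    omega
  have key : ∀ p : ℕ, ∃ (D : Subgroup G) (i : ℕ), p.Prime →
      (∀ x ∈ D, ∀ y ∈ D, x * y = y * x) ∧
      Nat.card D * i = p ^ (Nat.card G).factorization p ∧ i ∣ n.factorial := fun p => by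
    by_cases hp : p.Prime
    · obtain ⟨D, i, h⟩ := exists_abelian_pSubgroup hχ hf hp
      exact ⟨D, i, fun _ => hn ▸ h⟩
    · exact ⟨⊥, 1, fun h => absurd h hp⟩
  choose D i hDi using key
  -- the cut with `A`
  have hcut : ∀ H : Subgroup G, Nat.card H = Nat.card (A.subgroupOf H) * (A.subgroupOf H).index :=
    fun H => (Subgroup.card_mul_index _).symm
  have hcutA : ∀ H : Subgroup G, Nat.card (A.subgroupOf H) ∣ Nat.card A := fun H =>
    Subgroup.card_comap_dvd_of_injective A H.subtype H.subtype_injective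
  -- `[G : H₀]` involves only the small primes
  have hidx : H₀.index ∣ ∏ p ∈ S, p ^ (Nat.card G).factorization p := by
    rw [Nat.dvd_iff_prime_pow_dvd_dvd]
    intro q k hq hd
    rcases Nat.eq_zero_or_pos k with rfl | hk
    · simp
    have hqS : q ∈ S := Nat.mem_primesBelow.2
      ⟨by have := hH₀.2.2 q hq ((dvd_pow_self q hk.ne').trans hd); omega, hq⟩
    exact ((pow_dvd_pow q ((hq.pow_dvd_iff_le_factorization Nat.card_pos.ne').1
      (hd.trans (Subgroup.index_dvd_card H₀))))).trans
      (Finset.dvd_prod_of_mem (fun p => p ^ (Nat.card G).factorization p) hqS)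
  have hDpow : ∀ p ∈ S, ∃ k, Nat.card (D p) = p ^ k := fun p hp => by
    obtain ⟨k, -, hk⟩ := (Nat.dvd_prime_pow (hSp p hp)).1 ⟨_, (hDi p (hSp p hp)).2.1.symm⟩
    exact ⟨k, hk⟩
  have hprodA : Nat.card (A.subgroupOf H₀) * ∏ p ∈ S, Nat.card (A.subgroupOf (D p)) ∣
      Nat.card A := by
    have hp : ∀ p ∈ S, ∃ k, Nat.card (A.subgroupOf (D p)) = p ^ k := fun p hp => by
      obtain ⟨k, hk⟩ := hDpow p hp
      obtain ⟨j, -, hj⟩ := (Nat.dvd_prime_pow (hSp p hp)).1
        (hk ▸ Subgroup.card_subgroup_dvd_card (A.subgroupOf (D p)))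
      exact ⟨j, hj⟩
    refine Nat.Coprime.mul_dvd_of_dvd_of_dvd (Nat.Coprime.prod_right fun p hpS => ?_) (hcutA H₀)
      (prod_dvd_of_prime_powers hSp _ hp fun p _ => hcutA _)
    obtain ⟨k, hk⟩ := hp p hpS
    rw [hk]
    refine Nat.Coprime.pow_right _ (Nat.coprime_comm.1
      ((hSp p hpS).coprime_iff_not_dvd.2 fun hd => ?_))
    have := hH₀.2.1 p (hSp p hpS) (hd.trans (Subgroup.card_subgroup_dvd_card _))
    have := hSle p hpS
    omega
  have hprodi : (∏ p ∈ S, i p) ∣ n.factorial :=
    prod_dvd_of_prime_powers hSp i (fun p hp => by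
      obtain ⟨k, -, hk⟩ := (Nat.dvd_prime_pow (hSp p hp)).1
        ⟨_, ((mul_comm _ _).trans (hDi p (hSp p hp)).2.1).symm⟩
      exact ⟨k, hk⟩) fun p hp => (hDi p (hSp p hp)).2.2
  -- assemble
  have hmain : Nat.card G ≤
      n.factorial * 12 ^ (n * (Nat.primeCounting (n + 1) + 1)) * Nat.card A := by
    calc Nat.card G = Nat.card H₀ * H₀.index := (Subgroup.card_mul_index H₀).symm
      _ ≤ Nat.card H₀ * ∏ p ∈ S, (Nat.card (D p) * i p) := by
          refine Nat.mul_le_mul_left _ ?_
          rw [Finset.prod_congr rfl fun p hp => (hDi p (hSp p hp)).2.1]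
          exact Nat.le_of_dvd (Finset.prod_pos fun p hp => pow_pos (hSp p hp).pos _) hidx
      _ = (∏ p ∈ S, i p) * ((A.subgroupOf H₀).index * ∏ p ∈ S, (A.subgroupOf (D p)).index) *
            (Nat.card (A.subgroupOf H₀) * ∏ p ∈ S, Nat.card (A.subgroupOf (D p))) := by
          simp only [Finset.prod_mul_distrib, fun H => hcut H]
          ring
      _ ≤ n.factorial * 12 ^ (n * (Nat.primeCounting (n + 1) + 1)) * Nat.card A := by
          refine Nat.mul_le_mul (Nat.mul_le_mul (Nat.le_of_dvd n.factorial_pos hprodi) ?_)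
            (Nat.le_of_dvd Nat.card_pos hprodA)
          rw [pow_mul, pow_succ', ← hScard]
          refine Nat.mul_le_mul (hA H₀ hH₀.1) ?_
          exact Finset.prod_le_pow_card _ _ _ fun p hp => hA _ (hDi p (hSp p hp)).1
  rw [← Subgroup.card_mul_index A, mul_comm] at hmain
  exact Nat.le_of_mul_le_mul_right hmain Nat.card_pos

end Cfsg.Agent.LinearBound
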