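import Cfsg.Agent.Jordan.AbelianIndex

/-!
# An element with eigenvalues within sixty degrees of one of them

In an irreducible representation of a simple group no element other than a scalar has an
eigenvalue at distance below one from all its eigenvalues: the eigenspace would be invariant under
all conjugates of the element.
-/

set_option autoImplicit false

open scoped InnerProductSpace ComplexConjugate
open Module

namespace Cfsg.Agent.LinearBound

universe u

variable {G : Type u} [Group G]

/-- Every representation of a finite group is equivalent to one by isometries. -/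
theorem exists_isometric_equiv [Fintype G] {n : ℕ} (ρ : Representation ℂ G (Fin n → ℂ)) :
    ∃ (W : Type u) (_ : NormedAddCommGroup W) (_ : InnerProductSpace ℂ W)
      (_ : FiniteDimensional ℂ W)
      (σ : Representation ℂ G W) (e : (Fin n → ℂ) ≃ₗ[ℂ] W),
      (∀ g v, ‖σ g v‖ = ‖v‖) ∧ ∀ g v, σ g (e v) = e (ρ g v) := by
  classical
  let e := (WithLp.linearEquiv 2 ℂ (Fin n → ℂ)).symm
  let J : (Fin n → ℂ) →ₗ[ℂ] PiLp 2 (fun _ : G => EuclideanSpace ℂ (Fin n)) :=
    (WithLp.linearEquiv 2 ℂ (G → EuclideanSpace ℂ (Fin n))).symm.toLinearMap ∘ₗ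
      LinearMap.pi fun g => e.toLinearMap ∘ₗ ρ g
  have hJ : ∀ v g, J v g = e (ρ g v) := fun v g => rfl
  have hinj : Function.Injective J := fun v w h => by
    have h1 := congrArg (fun f : PiLp 2 (fun _ : G => EuclideanSpace ℂ (Fin n)) => f 1) h
    simpa [hJ] using h1
  let E := LinearEquiv.ofInjective J hinj
  let σ : Representation ℂ G (LinearMap.range J) := E.conjRingEquiv.toMonoidHom.comp ρ
  have hσ : ∀ g w, σ g (E w) = E (ρ g w) := fun g w => by
    simp [σ, LinearEquiv.conjRingEquiv]
  refine ⟨↥(LinearMap.range J), inferInstance, inferInstance, inferInstance, σ, E,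
    fun g v => ?_, hσ⟩
  obtain ⟨w, rfl⟩ := E.surjective v
  rw [hσ, Submodule.coe_norm, Submodule.coe_norm]
  show ‖J (ρ g w)‖ = ‖J w‖
  rw [PiLp.norm_eq_of_L2, PiLp.norm_eq_of_L2]
  congr 1
  refine Fintype.sum_equiv (Equiv.mulRight g) _ _ fun x => ?_
  simp [hJ, map_mul, Module.End.mul_apply]

/-- All conjugates of an element `y` leave invariant an eigenspace of `y` whose eigenvalue is at
distance below one from every eigenvalue. -/
theorem eigenspace_invariant_conj [Finite G] {n : ℕ} (ρ : Representation ℂ G (Fin n → ℂ))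
    (y : G) (c : ℂ) (hc : ‖c‖ = 1)
    (hlt : ∀ (v : Fin n → ℂ) (μ : ℂ), v ≠ 0 → ρ y v = μ • v → ‖μ - c‖ < 1)
    (k : G) (v : Fin n → ℂ) (hv : ρ y v = c • v) :
    ρ y (ρ (k * y * k⁻¹) v) = c • ρ (k * y * k⁻¹) v := by
  classical
  haveI := Fintype.ofFinite G
  obtain ⟨W, _, _, _, σ, e, hiso, hσ⟩ := exists_isometric_equiv ρ
  have hlt' : ∀ (w : W) (μ : ℂ), w ≠ 0 → σ y w = μ • w → ‖μ - c‖ < 1 := by
    intro w μ hw h
    obtain ⟨v, rfl⟩ := e.surjective w
    rw [hσ, ← map_smul] at h
    exact hlt v μ (fun h0 => hw (by rw [h0, map_zero])) (e.injective h)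
  have hdev := Jordan.dev_lt hiso y c one_pos hlt'
  set δ := Jordan.dev σ y c with hδ
  have hbound : ∀ w : W, ‖σ y w - c • w‖ ≤ δ * ‖w‖ := fun w => by
    simpa [hδ, Jordan.dev] using (Jordan.opRep σ y - c • 1).le_opNorm w
  have hcomp : ∀ (a b : G) (w : W), σ a (σ b w) = σ (a * b) w := fun a b w => by
    rw [map_mul]; rfl
  have hone : ∀ w : W, σ 1 w = w := fun w => by rw [map_one]; rfl
  have hcinv : ‖c‖ ≠ 0 := by rw [hc]; exact one_ne_zero
  have hc0 : c ≠ 0 := norm_ne_zero_iff.1 hcinv
  have hsmall : ∀ (g : G) (w : W), w ≠ 0 → ‖σ (g * y * g⁻¹) w - c • w‖ < ‖w‖ := by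
    intro g w hw
    have h1 : σ (g * y * g⁻¹) w - c • w = σ g (σ y (σ g⁻¹ w) - c • σ g⁻¹ w) := by
      rw [map_sub, map_smul, hcomp, hcomp, hcomp, mul_inv_cancel, hone, mul_assoc]
    rw [h1, hiso]
    refine lt_of_le_of_lt (hbound _) ?_
    rw [hiso]
    exact mul_lt_of_lt_one_left (norm_pos_iff.2 hw) hdev
  set E : Submodule ℂ W := Module.End.eigenspace (σ y) c with hE
  set b := Module.finBasis ℂ E with hb
  let S : Subgroup G :=
    { carrier := {g | ∀ w ∈ E, σ g w ∈ E}
      one_mem' := fun w hw => by rwa [hone]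
      mul_mem' := fun {g h} hg hh w hw => by rw [← hcomp]; exact hg _ (hh _ hw)
      inv_mem' := fun {g} hg => by
        have hpow : ∀ k : ℕ, ∀ w ∈ E, σ (g ^ k) w ∈ E := by
          intro k
          induction k with
          | zero => intro w hw; rwa [pow_zero, hone]
          | succ k ih => intro w hw; rw [pow_succ', ← hcomp]; exact hg _ (ih _ hw)
        intro w hw
        have h1 : g⁻¹ = g ^ (orderOf g - 1) := by
          refine inv_eq_of_mul_eq_one_right ?_
          rw [← pow_succ', Nat.sub_add_cancel (orderOf_pos g), pow_orderOf_eq_one]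
        rw [h1]
        exact hpow _ w hw }
  let Φ : G → ℝ := fun g => ∑ i, ‖σ (g * y * g⁻¹) (b i : W) - c • (b i : W)‖
  have hall : ∀ g : G, g * y * g⁻¹ ∈ S := by
    by_contra hcon
    obtain ⟨g₀, hg₀⟩ := not_forall.1 hcon
    obtain ⟨g, hg, hmin⟩ := Finset.exists_min_image
      (Finset.univ.filter fun g => g * y * g⁻¹ ∉ S) Φ
      ⟨g₀, Finset.mem_filter.2 ⟨Finset.mem_univ _, hg₀⟩⟩
    have hgS : g * y * g⁻¹ ∉ S := (Finset.mem_filter.1 hg).2
    set h := g * y * g⁻¹ with hh
    have hpos : 0 < Φ g := by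
      refine lt_of_le_of_ne (Finset.sum_nonneg fun i _ => norm_nonneg _) fun h0 => hgS ?_
      have hz := (Finset.sum_eq_zero_iff_of_nonneg fun i _ => norm_nonneg _).1 h0.symm
      intro w hw
      have hmap : ∀ v : E, σ h (v : W) = c • (v : W) := by
        intro v
        have : (σ h).comp E.subtype = c • E.subtype := b.ext fun i => by
          have := sub_eq_zero.1 (norm_eq_zero.1 (hz i (Finset.mem_univ i)))
          simpa [hh] using this
        simpa using LinearMap.congr_fun this v
      rw [hmap ⟨w, hw⟩]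
      exact E.smul_mem c hw
    have hterm : ∀ v ∈ E, ‖σ (h * y * h⁻¹) v - c • v‖ ≤ δ * ‖σ h v - c • v‖ := by
      intro v hv
      have hv' : σ y v = c • v := Module.End.mem_eigenspace_iff.1 hv
      have h1 : σ (h * y * h⁻¹) v - c • v =
          σ h (σ y (σ h⁻¹ v - c⁻¹ • v) - c • (σ h⁻¹ v - c⁻¹ • v)) := by
        simp only [map_sub, map_smul, smul_sub, hv', hcomp, mul_inv_cancel, hone, smul_smul,
          mul_inv_cancel₀ hc0, inv_mul_cancel₀ hc0, one_smul, mul_assoc]
        abel
      rw [h1, hiso]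
      refine (hbound _).trans (le_of_eq ?_)
      congr 1
      rw [← hiso h, map_sub, map_smul, hcomp, mul_inv_cancel, hone]
      have h2 : c • (v - c⁻¹ • σ h v) = -(σ h v - c • v) := by
        rw [smul_sub, smul_smul, mul_inv_cancel₀ hc0, one_smul, neg_sub]
      rw [← norm_neg (σ h v - c • v), ← h2, norm_smul, hc, one_mul]
    have hΦ : Φ h < Φ g := by
      refine lt_of_le_of_lt (Finset.sum_le_sum fun i _ => hterm _ (b i).2) ?_
      rw [← Finset.mul_sum]
      exact mul_lt_of_lt_one_left hpos hdev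
    have hzS : h * y * h⁻¹ ∈ S := by
      by_contra hn
      exact absurd (hmin h (Finset.mem_filter.2 ⟨Finset.mem_univ _, hn⟩)) (not_le.2 hΦ)
    have hfix : ∀ v ∈ E, σ (h * y * h⁻¹) v = c • v := by
      intro v hv
      by_contra hne
      set z := h * y * h⁻¹ with hz
      set u := σ z v - c • v with hu
      have huE : u ∈ E := E.sub_mem (hzS v hv) (E.smul_mem c hv)
      have hu0 : u ≠ 0 := sub_ne_zero.2 hne
      have hw : σ z (σ h u) = c • σ h u := by
        rw [hcomp, hz, inv_mul_cancel_right, ← hcomp, Module.End.mem_eigenspace_iff.1 huE, map_smul]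
      have hcc : conj c * c = 1 := by
        rw [← Complex.normSq_eq_conj_mul_self, Complex.normSq_eq_norm_sq, hc]; simp
      have h1 := Jordan.inner_map hiso z (σ h u) v
      rw [hw, inner_smul_left] at h1
      have h2 : ⟪σ h u, σ z v⟫_ℂ = c * ⟪σ h u, v⟫_ℂ := by
        rw [← h1, ← mul_assoc, mul_comm c, hcc, one_mul]
      have h3 : ⟪σ h u, u⟫_ℂ = 0 := by
        conv_lhs => arg 2; rw [hu]
        rw [inner_sub_right, inner_smul_right, h2, sub_self]
      have h4 := hsmall g u hu0
      rw [← hh] at h4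
      have h5 : ‖σ h u - c • u‖ ^ 2 = 2 * ‖u‖ ^ 2 := by
        rw [@norm_sub_sq ℂ, inner_smul_right, h3, mul_zero, norm_smul, hc, one_mul, hiso]
        simp; ring
      nlinarith [norm_nonneg (σ h u - c • u), norm_nonneg u]
    have hinv : h⁻¹ ∈ S := by
      intro v hv
      rw [hE, Module.End.mem_eigenspace_iff, hcomp]
      have h1 := congrArg (σ h⁻¹) (hfix v hv)
      rw [hcomp, map_smul, ← mul_assoc, ← mul_assoc, inv_mul_cancel, one_mul] at h1
      exact h1
    exact hgS (inv_inv h ▸ S.inv_mem hinv)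
  have hm : e v ∈ E := by rw [hE, Module.End.mem_eigenspace_iff, hσ, hv, map_smul]
  have h1 := hall k _ hm
  rw [hE, Module.End.mem_eigenspace_iff, hσ, hσ, ← map_smul] at h1
  exact e.injective h1

/-- In an irreducible representation of a simple group, no non-scalar element has an eigenvalue
at distance below one from every eigenvalue. -/
theorem false_of_sixty [Finite G] [IsSimpleGroup G] {n : ℕ} (ρ : Representation ℂ G (Fin n → ℂ))
    (hirr : ρ.IsIrreducible) (y : G) (hy : y ≠ 1) (c : ℂ) (hc : ‖c‖ = 1)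
    (hex : ∃ v, v ≠ 0 ∧ ρ y v = c • v)
    (hlt : ∀ (v : Fin n → ℂ) (μ : ℂ), v ≠ 0 → ρ y v = μ • v → ‖μ - c‖ < 1)
    (hns : ∃ v, ρ y v ≠ c • v) : False := by
  classical
  set E : Submodule ℂ (Fin n → ℂ) := Module.End.eigenspace (ρ y) c with hE
  let S : Subgroup G :=
    { carrier := {g | ∀ w ∈ E, ρ g w ∈ E}
      one_mem' := fun w hw => by rw [map_one]; exact hw
      mul_mem' := fun {g h} hg hh w hw => by
        rw [map_mul, Module.End.mul_apply]; exact hg _ (hh _ hw)
      inv_mem' := fun {g} hg => by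
        have hpow : ∀ k : ℕ, ∀ w ∈ E, ρ (g ^ k) w ∈ E := by
          intro k
          induction k with
          | zero => intro w hw; rw [pow_zero, map_one]; exact hw
          | succ k ih =>
            intro w hw
            rw [pow_succ', map_mul, Module.End.mul_apply]
            exact hg _ (ih _ hw)
        intro w hw
        have h1 : g⁻¹ = g ^ (orderOf g - 1) := by
          refine inv_eq_of_mul_eq_one_right ?_
          rw [← pow_succ', Nat.sub_add_cancel (orderOf_pos g), pow_orderOf_eq_one]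
        rw [h1]
        exact hpow _ w hw }
  have hall : ∀ k : G, k * y * k⁻¹ ∈ S := fun k w hw => Module.End.mem_eigenspace_iff.2
    (eigenspace_invariant_conj ρ y c hc hlt k w (Module.End.mem_eigenspace_iff.1 hw))
  have htop : Subgroup.normalClosure ({y} : Set G) = ⊤ := by
    refine (Subgroup.normalClosure_normal.eq_bot_or_eq_top).resolve_left fun h => hy ?_
    exact Subgroup.mem_bot.1 (h ▸ Subgroup.subset_normalClosure (Set.mem_singleton y))
  have hS : ∀ g : G, g ∈ S := by
    intro g
    have hle : Subgroup.normalClosure ({y} : Set G) ≤ S := by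
      refine (Subgroup.closure_le _).2 fun z hz => ?_
      obtain ⟨a, ha, hconj⟩ := Group.mem_conjugatesOfSet_iff.1 hz
      obtain rfl := Set.mem_singleton_iff.1 ha
      obtain ⟨k, rfl⟩ := isConj_iff.1 hconj
      exact hall k
    exact hle (htop ▸ Subgroup.mem_top g)
  rcases ((Char.isIrreducible_iff_forall ρ).1 hirr).2 E
      (fun g v hv => hS g v hv) with h | h
  · obtain ⟨v, hv0, hv⟩ := hex
    exact hv0 ((Submodule.mem_bot ℂ).1 (h ▸ Module.End.mem_eigenspace_iff.2 hv : v ∈ (⊥ : Submodule ℂ _)))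
  · obtain ⟨v, hv⟩ := hns
    exact hv (Module.End.mem_eigenspace_iff.1 (h ▸ Submodule.mem_top : v ∈ E))

end Cfsg.Agent.LinearBound
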