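import Cfsg.Agent.LinearBound.WinterTools

/-!
# A `p`-element acting on a normal `q`-subgroup whose abelian characteristic parts are central
-/

set_option autoImplicit false
set_option linter.style.haveILetI false

open Cfsg
open scoped ComplexConjugate

namespace Cfsg.Agent.LinearBound

universe u

variable {G : Type u} [Group G] [Finite G]

/-- The main computation: `q ^ i ≡ ±1` for some `i` up to `m`, where `q ^ m` is the degree on `Q`. -/
theorem false_of_ramified {p q n : ℕ} (hp : p.Prime) (hp2 : p ≠ 2) (hq : q.Prime) (hgood : GoodDeg p n)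
    (Q : Subgroup G) [Q.Normal] (hQq : IsPGroup q Q) (hqp : q ≠ p)
    (hcentral : ∀ A : Subgroup G, A.Normal → (∀ a ∈ A, ∀ b ∈ A, a * b = b * a) →
      A ≤ Subgroup.center G)
    {θ : Q → ℂ} (hθ : IsIrrCharacter Q θ) (hθf : Faithful θ) (hθd : charDegree θ ∣ n)
    (hθinv : ∀ g : G, CharInd.conjChar Q g θ = θ)
    {x : G} {a : ℕ} (hxa : orderOf x = p ^ a) (hxc : x ^ p ∈ Subgroup.center G)
    (hx : x ∉ Subgroup.centralizer (Q : Set G)) : False := by
  classical
  haveI := Fact.mk hp
  haveI := Fact.mk hq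
  haveI : Group.IsNilpotent Q := hQq.isNilpotent
  -- the centre of `Q`
  have hZG : ∀ z : Q, z ∈ Subgroup.center Q → (z : G) ∈ Subgroup.center G := by
    intro z hz
    refine hcentral ((Subgroup.center Q).map Q.subtype) inferInstance ?_
      (Subgroup.mem_map_of_mem _ hz)
    rintro _ ⟨u, hu, rfl⟩ _ ⟨v, hv, rfl⟩
    exact congrArg Subtype.val (Subgroup.mem_center_iff.1 hv u)
  -- class two
  have hcl : commutator Q ≤ Subgroup.center Q := by
    set Z2 := Subgroup.upperCentralSeries Q 2 with hZ2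
    have h1 : ⁅⁅Z2, (⊤ : Subgroup Q)⁆, (⊤ : Subgroup Q)⁆ = ⊥ := by
      rw [Subgroup.commutator_eq_bot_iff_le_centralizer]
      rw [Subgroup.commutator_le]
      intro u hu v _
      have h := (Subgroup.mem_upperCentralSeries_succ_iff).1 hu v
      rw [Subgroup.upperCentralSeries_one] at h
      rw [Subgroup.mem_centralizer_iff]
      intro w _
      exact Subgroup.mem_center_iff.1 h w
    have h2 : ⁅⁅(⊤ : Subgroup Q), Z2⁆, (⊤ : Subgroup Q)⁆ = ⊥ := by
      rw [Subgroup.commutator_comm ⊤ Z2]; exact h1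
    have h3 : ⁅commutator Q, Z2⁆ = ⊥ :=
      Subgroup.commutator_commutator_eq_bot_of_rotate h2 h1
    set A := commutator Q ⊓ Z2 with hA
    have hAab : ∀ u ∈ A, ∀ v ∈ A, u * v = v * u := fun u hu v hv => by
      have h := Subgroup.commutator_mem_commutator hu.1 hv.2
      rw [h3, Subgroup.mem_bot] at h
      exact commutatorElement_eq_one_iff_mul_comm.1 h
    haveI : A.Characteristic := by
      rw [hA, Subgroup.characteristic_iff_map_le]
      intro e
      refine le_inf ((Subgroup.map_mono inf_le_left).trans ?_) ((Subgroup.map_mono inf_le_right).trans ?_)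
      · exact (Subgroup.characteristic_iff_map_le.1 inferInstance) e
      · exact (Subgroup.characteristic_iff_map_le.1 inferInstance) e
    have hAc : A ≤ Subgroup.center Q := by
      intro u hu
      have h := hcentral (A.map Q.subtype) inferInstance (by
        rintro _ ⟨u, hu, rfl⟩ _ ⟨v, hv, rfl⟩
        rw [← map_mul, ← map_mul, hAab u hu v hv]) (Subgroup.mem_map_of_mem _ hu)
      rw [Subgroup.mem_center_iff]
      intro v
      exact Subtype.ext (Subgroup.mem_center_iff.1 h (v : G))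
    intro u hu
    by_contra hnot
    set π := QuotientGroup.mk' (Subgroup.center Q)
    set D := (commutator Q).map π with hD
    haveI : D.Normal := (inferInstance : (commutator Q).Normal).map π (QuotientGroup.mk'_surjective _)
    have hDne : D ≠ ⊥ := by
      intro h
      have : π u ∈ D := Subgroup.mem_map_of_mem _ hu
      rw [h, Subgroup.mem_bot] at this
      exact hnot ((QuotientGroup.eq_one_iff u).1 this)
    haveI : Nontrivial D := (Subgroup.nontrivial_iff_ne_bot D).2 hDne
    have hQbar : IsPGroup q (Q ⧸ Subgroup.center Q) := hQq.to_quotient _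
    haveI : Group.IsNilpotent (Q ⧸ Subgroup.center Q) := hQbar.isNilpotent
    obtain ⟨w, hwD, hwc, hw1⟩ : ∃ w, w ∈ D ∧ w ∈ Subgroup.center (Q ⧸ Subgroup.center Q) ∧ w ≠ 1 := by
      letI : MulAction (Q ⧸ Subgroup.center Q) D :=
        MulAction.compHom D (MulAut.conjNormal (H := D))
      have hqD : q ∣ Nat.card D := by
        obtain ⟨i, hi⟩ := (hQbar.to_subgroup D).exists_card_eq
        rcases Nat.eq_zero_or_pos i with rfl | hi0
        · exact absurd (hi.trans (pow_zero q)) Finite.one_lt_card.ne'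
        · exact hi ▸ dvd_pow_self q hi0.ne'
      have h1 : (1 : D) ∈ MulAction.fixedPoints (Q ⧸ Subgroup.center Q) D := fun g =>
        map_one (MulAut.conjNormal (H := D) g)
      obtain ⟨w, hw, hne⟩ := hQbar.exists_fixed_point_of_prime_dvd_card_of_fixed_point D hqD h1
      refine ⟨w, w.2, ?_, fun h => hne (Subtype.ext h.symm)⟩
      rw [Subgroup.mem_center_iff]
      intro g
      have h2 : g * (w : Q ⧸ Subgroup.center Q) * g⁻¹ = w := congrArg Subtype.val (hw g)
      calc g * (w : Q ⧸ Subgroup.center Q) = g * (w : Q ⧸ Subgroup.center Q) * g⁻¹ * g := by group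
        _ = (w : Q ⧸ Subgroup.center Q) * g := by rw [h2]
    obtain ⟨c, hc, rfl⟩ := hwD
    apply hw1
    refine (QuotientGroup.eq_one_iff c).2 (hAc ⟨hc, ?_⟩)
    show c ∈ Subgroup.upperCentralSeries Q (1 + 1)
    rw [Subgroup.mem_upperCentralSeries_succ_iff, Subgroup.upperCentralSeries_one]
    intro v
    rw [← QuotientGroup.eq_one_iff]
    have hcm := Subgroup.mem_center_iff.1 hwc (π v)
    show π _ = 1
    rw [map_commutatorElement, commutatorElement_eq_one_iff_mul_comm]
    exact hcm.symm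
  letI := Fintype.ofFinite Q
  letI := Fintype.ofFinite G
  -- `θ` vanishes off the centre
  have hvan : ∀ g : Q, g ∉ Subgroup.center Q → θ g = 0 := by
    intro g hg
    obtain ⟨h, hh⟩ : ∃ h, h * g ≠ g * h := by
      by_contra! hcon
      exact hg (Subgroup.mem_center_iff.mpr hcon)
    set c := h * g * h⁻¹ * g⁻¹ with hcdef
    have hcm : c ∈ Subgroup.center Q :=
      hcl (Subgroup.commutator_mem_commutator (Subgroup.mem_top _) (Subgroup.mem_top _))
    obtain ⟨ω, -, hωc, hω⟩ := Char.irr_mul_center hθ hcm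
    have hω1 : ω ≠ 1 := by
      intro h1
      rw [h1, one_mul] at hωc
      have h2 := hθf c hωc
      apply hh
      calc h * g = c * (g * h) := by rw [hcdef]; group
        _ = g * h := by rw [h2, one_mul]
    have h3 := hω g
    rw [show c * g = h * g * h⁻¹ by rw [hcdef]; group, Char.irr_isClassFunction hθ] at h3
    have h4 : (ω - 1) * θ g = 0 := by rw [sub_mul, one_mul, ← h3, sub_self]
    exact (mul_eq_zero.mp h4).resolve_left (sub_ne_zero.mpr hω1)
  set d := charDegree θ with hd
  have hθ1 : θ 1 = (d : ℂ) := apply_one (Char.isCharacter_of_irr hθ)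
  have hdsq : d ^ 2 * Nat.card (Subgroup.center Q) = Nat.card Q := by
    have h := Char.sum_mul_conj_eq_card_mul_classInner θ θ
    rw [Char.classInner_irr_self hθ, mul_one] at h
    rw [← Finset.sum_subset (Finset.subset_univ (Finset.univ.filter (· ∈ Subgroup.center Q)))
      (fun g _ hg => by
        rw [hvan g (by simpa using hg), zero_mul])] at h
    have hterm : ∀ z ∈ Finset.univ.filter (fun z => z ∈ Subgroup.center Q),
        θ z * conj (θ z) = ((d ^ 2 : ℕ) : ℂ) := by
      intro z hz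
      obtain ⟨ω, hω, hωz, -⟩ := Char.irr_mul_center hθ (Finset.mem_filter.mp hz).2
      have hn : ω * conj ω = 1 := by
        rw [Complex.mul_conj', Complex.norm_eq_one_of_pow_eq_one hω (orderOf_pos z).ne']; simp
      rw [hωz, hθ1, map_mul, Complex.conj_natCast]
      push_cast
      linear_combination (d : ℂ) ^ 2 * hn
    rw [Finset.sum_congr rfl hterm, Finset.sum_const, nsmul_eq_mul] at h
    rw [mul_comm, Nat.card_eq_fintype_card, Fintype.card_subtype]
    exact_mod_cast h
  -- the group `Q ⟨x⟩`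
  set H := Q ⊔ Subgroup.zpowers x with hH
  have hQH : Q ≤ H := le_sup_left
  set Q' := Q.subgroupOf H with hQ'
  let e : Q' ≃* Q := Subgroup.subgroupOfEquivOfLe hQH
  let θ' : Q' → ℂ := fun g => θ (e g)
  have hθ' : IsIrrCharacter Q' θ' := Char.isIrrCharacter_comp_mulEquiv hθ e
  have hθ'inv : ∀ h : H, CharInd.conjChar Q' h θ' = θ' := fun h => by
    funext z
    have := congrFun (hθinv (h : G)) (e z)
    rw [CharInd.conjChar_apply] at this
    rw [CharInd.conjChar_apply]
    show θ (e _) = θ (e z)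
    exact (congrArg θ (Subtype.ext rfl)).trans this
  have hcardQ' : Nat.card Q' = Nat.card Q := Nat.card_congr e.toEquiv
  obtain ⟨j, hj⟩ := hQq.exists_card_eq
  have hcopQ : (Nat.card Q').Coprime p := by
    rw [hcardQ', hj]
    exact Nat.Coprime.pow_left j ((Nat.coprime_primes hq hp).2 hqp)
  have hxH : x ∈ H := Subgroup.mem_sup_right (Subgroup.mem_zpowers x)
  let xH : H := ⟨x, hxH⟩
  have hxHord : orderOf xH = p ^ a := by rw [Subgroup.orderOf_mk, hxa]
  have hidx : ∃ m, Q'.index = p ^ m := by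
    have hsup : (Subgroup.zpowers x).subgroupOf H ⊔ Q' = ⊤ := by
      rw [hQ', ← Subgroup.subgroupOf_sup le_sup_right hQH, sup_comm, Subgroup.subgroupOf_self]
    have hXp : IsPGroup p ((Subgroup.zpowers x).subgroupOf H) :=
      (IsPGroup.of_card (n := a) (by rw [Nat.card_zpowers, hxa]) :
        IsPGroup p (Subgroup.zpowers x)).of_equiv
        (Subgroup.subgroupOfEquivOfLe (le_sup_right : Subgroup.zpowers x ≤ H)).symm
    have hsurj : Function.Surjective
        ((QuotientGroup.mk' Q').comp ((Subgroup.zpowers x).subgroupOf H).subtype) := by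
      rw [← MonoidHom.range_eq_top, MonoidHom.range_comp, Subgroup.range_subtype]
      refine top_le_iff.1 ?_
      rw [← Subgroup.map_top_of_surjective _ (QuotientGroup.mk'_surjective Q'), ← hsup,
        Subgroup.map_sup, QuotientGroup.map_mk'_self, sup_bot_eq]
    exact IsPGroup.iff_card.1 (hXp.of_surjective _ hsurj)
  letI := Fintype.ofFinite H
  obtain ⟨ψ, hψ, hψv, hψp⟩ := exists_fixed_over_orbit hp Q' hcopQ hidx hθ'
  have hψQ : ∀ z : Q', ψ z = θ' z := fun z => by
    rw [hψv]
    have : CharInd.conjClass Q' θ' = {θ'} := CharExt.conjClass_eq_singleton Q'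
      (top_le_iff.1 fun h _ => CharExt.mem_inertia.2 (hθ'inv h))
    rw [this, Finset.sum_singleton]
  obtain ⟨k, σ, rfl⟩ := hψ
  have hk : k = d := by
    have h := hψQ 1
    rw [OneMemClass.coe_one, σ.char_one, Module.finrank_fintype_fun_eq_card, Fintype.card_fin] at h
    have h' : θ' 1 = (d : ℂ) := by show θ (e 1) = _; rw [map_one, hθ1]
    rw [h'] at h
    exact_mod_cast h
  subst k
  let σQ : Representation ℂ Q' (Fin d → ℂ) := σ.comp Q'.subtype
  have hσQ : σQ.IsIrreducible := by
    obtain ⟨r, ρ, hρ, hρc⟩ := hθ'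
    haveI := hρ
    obtain ⟨φ⟩ := CharExt.nonempty_equiv_of_character_eq ρ σQ
      (hρc.trans (funext fun z => (hψQ z).symm))
    exact Char.isIrreducible_of_equiv φ
  haveI := hσQ
  haveI : Nontrivial (Fin d → ℂ) := Char.nontrivial_of_isIrreducible σQ
  haveI : σ.IsIrreducible := CharExt.isIrreducible_of_restrict Q' σ σQ fun z => rfl
  have hd0 : d ≠ 0 := by
    rintro h
    have := Module.finrank_pos (R := ℂ) (M := Fin d → ℂ)
    simp [h] at this
  -- invariance under powers
  have hinv : ∀ (i : ℕ), ¬ p ∣ i → ∀ s : ℕ, σ.character ((xH ^ s) ^ i) = σ.character (xH ^ s) := by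
    intro i hi s
    obtain ⟨k', hk1', hk2⟩ := Nat.chineseRemainder
      (Nat.Coprime.pow_left (a + 1) (Nat.coprime_comm.1 hcopQ)) i 1
    obtain ⟨m, hm⟩ := hidx
    have hcop : k'.Coprime (Nat.card H) := by
      rw [← Subgroup.card_mul_index Q', hm]
      refine Nat.Coprime.mul_right ?_ (Nat.Coprime.pow_right m ?_)
      · rw [Nat.Coprime, hk2.gcd_eq]; simp
      · refine Nat.coprime_comm.1 (hp.coprime_iff_not_dvd.2 fun hd => hi ?_)
        exact ((Nat.ModEq.of_dvd (dvd_pow_self p a.succ_ne_zero) hk1').dvd_iff dvd_rfl).1 hd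
    have hpow : (xH ^ s) ^ i = (xH ^ s) ^ k' := by
      refine pow_eq_pow_iff_modEq.2 ((hk1'.of_dvd (pow_dvd_pow p a.le_succ)).symm.of_dvd ?_)
      exact hxHord ▸ orderOf_pow_dvd s
    rw [hpow]
    exact hψp k' hcop hk2 _
  -- `x ^ p` acts trivially
  have hxp : σ (xH ^ p) = 1 := by
    have hc : xH ^ p ∈ Subgroup.center H := by
      rw [Subgroup.mem_center_iff]
      exact fun h => Subtype.ext (Subgroup.mem_center_iff.1 hxc h)
    obtain ⟨ω, hω⟩ := Char.exists_smul_of_mem_center σ hc
    have h2 := hinv 2 (fun h => hp2 ((Nat.prime_dvd_prime_iff_eq hp Nat.prime_two).1 h)) p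
    have hω2 : σ ((xH ^ p) ^ 2) = (ω * ω) • LinearMap.id := by
      rw [map_pow, hω, pow_two, ← Module.End.one_eq_id, smul_mul_smul_comm, one_mul]
    rw [Representation.character, Representation.character, hω, hω2, map_smul, map_smul,
      LinearMap.trace_id, smul_eq_mul, smul_eq_mul] at h2
    have hω0 : ω ≠ 0 := fun h => by
      have h1 : σ (xH ^ p)⁻¹ * σ (xH ^ p) = 1 := by rw [← map_mul, inv_mul_cancel, map_one]
      rw [hω, h, zero_smul, mul_zero] at h1
      exact zero_ne_one h1
    have hfr : ((Module.finrank ℂ (Fin d → ℂ) : ℕ) : ℂ) ≠ 0 :=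
      Nat.cast_ne_zero.2 (by simpa using hd0)
    have hω1 : ω = 1 := mul_left_cancel₀ hω0 (by rw [mul_one]; exact mul_right_cancel₀ hfr h2)
    rw [hω, hω1, one_smul, Module.End.one_eq_id]
  -- the value at `x`
  obtain ⟨b, ε, hb, -⟩ := Char.exists_eigenbasis σ xH
  have hεp : ∀ i, ε i ^ p = 1 := fun i => by
    have key : ∀ s : ℕ, σ (xH ^ s) (b i) = ε i ^ s • b i := fun s => by
      induction s with
      | zero => simp
      | succ s ih =>
        rw [pow_succ', map_mul, Module.End.mul_apply, ih, map_smul, hb, smul_smul, pow_succ]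
    have h := key p
    rw [hxp, Module.End.one_apply] at h
    exact (smul_left_injective ℂ (b.ne_zero i) (by simpa using h)).symm
  obtain ⟨z, hz, hzd⟩ := int_value_of_const hp hεp (z := σ.character xH) fun s hs hs' => by
    rw [← Char.character_pow_eq_sum σ hb s]
    have h := hinv s (fun h => by have := Nat.le_of_dvd (by omega) h; omega) 1
    rwa [pow_one] at h
  rw [show (Module.finrank ℂ (Fin d → ℂ) : ℤ) = (d : ℤ) by simp] at hzd
  have hsum := trace_identity σ Q' hσQ xH
  rw [Char.character_inv σ xH, hz] at hsum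
  simp only [map_intCast] at hsum
  -- the left side counts the fixed points of `x`
  set Cx := (Subgroup.centralizer ({xH} : Set H)).subgroupOf Q' with hCx
  have hterm : ∀ g : Q', σ.character ((g : H) * xH * (g : H)⁻¹ * xH⁻¹) =
      if g ∈ Cx then (d : ℂ) else 0 := by
    intro g
    have hmemQ : (g : H) * xH * (g : H)⁻¹ * xH⁻¹ ∈ Q' := by
      rw [mul_assoc ((g : H) * xH), mul_assoc (g : H) xH, ← mul_assoc xH]
      exact Q'.mul_mem g.2 ((inferInstance : Q'.Normal).conj_mem _ (Q'.inv_mem g.2) xH)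
    rw [show (g : H) * xH * (g : H)⁻¹ * xH⁻¹ = ((⟨_, hmemQ⟩ : Q') : H) from rfl, hψQ]
    by_cases hg : g ∈ Cx
    · rw [if_pos hg]
      have h : (g : H) * xH = xH * (g : H) :=
        Subgroup.mem_centralizer_singleton_iff.1 (Subgroup.mem_subgroupOf.1 hg)
      have e1 : (⟨_, hmemQ⟩ : Q') = 1 := Subtype.ext (by
        show (g : H) * xH * (g : H)⁻¹ * xH⁻¹ = 1
        rw [h, mul_inv_cancel_right, mul_inv_cancel])
      show θ (e _) = _
      rw [e1, map_one, hθ1]
    · rw [if_neg hg]
      refine hvan _ fun hcen => hg ?_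
      have hcG := hZG _ hcen
      change ((g : H) : G) * x * ((g : H) : G)⁻¹ * x⁻¹ ∈ Subgroup.center G at hcG
      set γ : G := ((g : H) : G) with hγ
      set c := γ * x * γ⁻¹ * x⁻¹ with hc
      have hγx : γ * x * γ⁻¹ = c * x := by rw [hc]; group
      have hcp : c ^ p = 1 := by
        have h1 : (γ * x * γ⁻¹) ^ p = x ^ p := by
          rw [conj_pow, Subgroup.mem_center_iff.1 hxc γ, mul_inv_cancel_right]
        rw [hγx, (show Commute c x from (Subgroup.mem_center_iff.1 hcG x).symm).mul_pow p] at h1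
        exact mul_eq_right.1 h1
      have hcq : c ^ Nat.card Q = 1 :=
        orderOf_dvd_iff_pow_eq_one.1 (Subgroup.orderOf_dvd_natCard Q
          (show c ∈ Q from (e ⟨_, hmemQ⟩).2))
      have hc1 : c = 1 := by
        have := pow_gcd_eq_one.2 ⟨hcq, hcp⟩
        rwa [← hcardQ', hcopQ, pow_one] at this
      rw [Subgroup.mem_subgroupOf, Subgroup.mem_centralizer_singleton_iff]
      refine Subtype.ext ?_
      show γ * x = x * γ
      rw [hc1, one_mul, mul_inv_eq_iff_eq_mul] at hγx
      exact hγx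
  rw [Finset.sum_congr rfl fun g _ => hterm g, Finset.sum_ite, Finset.sum_const_zero, add_zero,
    Finset.sum_const, nsmul_eq_mul, ← Fintype.card_subtype, ← Nat.card_eq_fintype_card] at hsum
  have hsum' : (d : ℤ) * ((Nat.card Cx : ℤ) * d) = (Nat.card Q : ℤ) * z * z := by
    rw [← hcardQ']; exact_mod_cast hsum
  set Zc := Subgroup.center Q with hZc
  have hz2 : Nat.card Cx = Nat.card Zc * z.natAbs ^ 2 := by
    have h1 : ((Nat.card Cx : ℕ) : ℤ) = ((Nat.card Zc * z.natAbs ^ 2 : ℕ) : ℤ) := by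
      push_cast
      rw [sq_abs]
      refine mul_left_cancel₀ (pow_ne_zero 2 (Nat.cast_ne_zero.2 hd0 : (d : ℤ) ≠ 0)) ?_
      have hdsq' : (d : ℤ) ^ 2 * (Nat.card Zc : ℤ) = Nat.card Q := by exact_mod_cast hdsq
      linear_combination hsum' - z ^ 2 * hdsq'
    exact_mod_cast h1
  obtain ⟨c', -, hc'⟩ := (Nat.dvd_prime_pow hq).1
    (hj ▸ hcardQ' ▸ Subgroup.card_subgroup_dvd_card Cx)
  have hzabs : z.natAbs ∣ q ^ c' := hc' ▸ hz2 ▸ (dvd_pow_self _ two_ne_zero).trans (dvd_mul_left _ _)
  obtain ⟨c, -, hc⟩ := (Nat.dvd_prime_pow hq).1 hzabs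
  have hdq : d ∣ q ^ j := ⟨d * Nat.card Zc, by rw [← hj, ← hdsq]; ring⟩
  obtain ⟨m, -, hm⟩ := (Nat.dvd_prime_pow hq).1 hdq
  have hlt : c < m := by
    have hne : Nat.card Cx ≠ Nat.card Q' := by
      intro h
      have htop := Subgroup.eq_top_of_card_eq Cx h
      refine hx (Subgroup.mem_centralizer_iff.2 fun g hg => ?_)
      have h1 : (⟨⟨g, hQH hg⟩, hg⟩ : Q') ∈ Cx := htop ▸ Subgroup.mem_top _
      exact congrArg Subtype.val (Subgroup.mem_centralizer_singleton_iff.1
        (Subgroup.mem_subgroupOf.1 h1))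
    have h1 := lt_of_le_of_ne (Subgroup.card_le_card_group Cx) hne
    rw [hz2, hcardQ', ← hdsq, hm, hc, mul_comm] at h1
    have h2 := Nat.lt_of_mul_lt_mul_right h1
    rw [← pow_mul, ← pow_mul] at h2
    have := (Nat.pow_lt_pow_iff_right hq.one_lt).1 h2
    omega
  -- the congruence
  have hqm : q ^ (m - c) ∣ n := by
    refine (pow_dvd_pow q (Nat.sub_le m c)).trans ?_
    rw [← hm]; exact hθd
  refine hgood (q ^ (m - c)) (hq.isPrimePow.pow (by omega)) hqm ?_
  have hpq : ¬ (p : ℤ) ∣ (q : ℤ) ^ c := fun h => by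
    have h1 : p ∣ q ^ c := by exact_mod_cast h
    exact hqp ((Nat.prime_dvd_prime_iff_eq hp hq).1 (hp.dvd_of_dvd_pow h1)).symm
  have hzc : z = (q : ℤ) ^ c ∨ z = -(q : ℤ) ^ c := by
    rcases Int.natAbs_eq z with h | h <;> rw [hc] at h <;> push_cast at h
    · exact Or.inl h
    · exact Or.inr h
  have hdz : (d : ℤ) = (q : ℤ) ^ c * (q : ℤ) ^ (m - c) := by
    rw [← pow_add, Nat.add_sub_cancel' hlt.le, hm]; push_cast; rfl
  have hpi : Prime (p : ℤ) := Nat.prime_iff_prime_int.1 hp
  rcases hzc with h | h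
  · right; right
    rw [h, hdz, show (q : ℤ) ^ c * (q : ℤ) ^ (m - c) - (q : ℤ) ^ c =
      (q : ℤ) ^ c * ((q : ℤ) ^ (m - c) - 1) by ring] at hzd
    push_cast
    exact (Int.modEq_iff_dvd.2 ((hpi.dvd_mul.1 hzd).resolve_left hpq)).symm
  · left
    rw [h, hdz, show (q : ℤ) ^ c * (q : ℤ) ^ (m - c) - -(q : ℤ) ^ c =
      (q : ℤ) ^ c * ((q : ℤ) ^ (m - c) - (-1)) by ring] at hzd
    push_cast
    exact (Int.modEq_iff_dvd.2 ((hpi.dvd_mul.1 hzd).resolve_left hpq)).symm

end Cfsg.Agent.LinearBound
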