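import Cfsg.Agent.LinearBound.CanonicalInduced
import Cfsg.Agent.BlkChar.GalAvg
import Cfsg.Agent.SolvStruct.Basic
import Cfsg.Agent.Cores.Fitting
import Mathlib.GroupTheory.Solvable

/-!
# Tools for the theorem on prime power divisors of degrees of solvable linear groups
-/

set_option autoImplicit false
set_option linter.style.haveILetI false

open Cfsg

namespace Cfsg.Agent.LinearBound

universe u

variable {G : Type u} [Group G] [Finite G]

/-- No prime power divisor of `n` is `-1`, `0` or `1` modulo `p`. -/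
def GoodDeg (p n : ℕ) : Prop :=
  ∀ q : ℕ, IsPrimePow q → q ∣ n →
    ¬ ((q : ℤ) ≡ -1 [ZMOD p] ∨ (q : ℤ) ≡ 0 [ZMOD p] ∨ (q : ℤ) ≡ 1 [ZMOD p])

theorem GoodDeg.of_dvd {p n m : ℕ} (h : GoodDeg p n) (hm : m ∣ n) : GoodDeg p m :=
  fun q hq hd => h q hq (hd.trans hm)

theorem GoodDeg.not_dvd {p n : ℕ} (hp : p.Prime) (h : GoodDeg p n) : ¬ p ∣ n := fun hd =>
  h p hp.isPrimePow hd (Or.inr (Or.inl ((Int.modEq_zero_iff_dvd).2 dvd_rfl)))

/-- A proper normal subgroup of a solvable group lies in a normal subgroup of prime index. -/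
theorem exists_normal_prime_index [Group.IsSolvable G] (N : Subgroup G) [N.Normal] (hN : N ≠ ⊤) :
    ∃ M : Subgroup G, M.Normal ∧ N ≤ M ∧ M.index.Prime := by
  have hne : N ⊔ commutator G ≠ ⊤ := by
    intro h
    haveI : Nontrivial (G ⧸ N) := QuotientGroup.nontrivial_iff.2 hN
    have h1 := IsSolvable.commutator_lt_top_of_nontrivial (G ⧸ N)
    refine h1.ne ?_
    have h2 := congrArg (Subgroup.map (QuotientGroup.mk' N)) h
    rw [Subgroup.map_sup, QuotientGroup.map_mk'_self, bot_sup_eq,
      Subgroup.map_top_of_surjective _ (QuotientGroup.mk'_surjective N), _root_.commutator,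
      Subgroup.map_commutator, Subgroup.map_top_of_surjective _ (QuotientGroup.mk'_surjective N)] at h2
    rw [_root_.commutator]
    exact h2
  obtain ⟨M, hM, hle⟩ := (eq_top_or_exists_le_coatom (N ⊔ commutator G)).resolve_left hne
  haveI hMn : M.Normal := ⟨fun x hx g => by
    have h1 : g * x * g⁻¹ * x⁻¹ ∈ M := (le_sup_right.trans hle)
      (Subgroup.commutator_mem_commutator (Subgroup.mem_top g) (Subgroup.mem_top x))
    have := M.mul_mem h1 hx
    rwa [inv_mul_cancel_right] at this⟩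
  refine ⟨M, hMn, le_sup_left.trans hle, ?_⟩
  haveI : Nontrivial (G ⧸ M) := QuotientGroup.nontrivial_iff.2 hM.1
  obtain ⟨r, hr, hrd⟩ := Nat.exists_prime_and_dvd (n := Nat.card (G ⧸ M)) Finite.one_lt_card.ne'
  haveI := Fact.mk hr
  obtain ⟨y, hy⟩ := exists_prime_orderOf_dvd_card' r hrd
  set Y := (Subgroup.zpowers y).comap (QuotientGroup.mk' M) with hY
  rcases lt_or_eq_of_le (QuotientGroup.le_comap_mk' M (Subgroup.zpowers y) : M ≤ Y) with hlt | heq
  · have hYtop := hM.2 Y hlt
    have hz : Subgroup.zpowers y = ⊤ := Subgroup.comap_injective (QuotientGroup.mk'_surjective M)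
      (hYtop.trans (Subgroup.comap_top _).symm)
    rw [Subgroup.index_eq_card, ← Subgroup.card_top, ← hz, Nat.card_zpowers, hy]
    exact hr
  · exfalso
    obtain ⟨g, rfl⟩ := QuotientGroup.mk'_surjective M y
    have : g ∈ M := by
      rw [heq]
      exact Subgroup.mem_zpowers _
    rw [show QuotientGroup.mk' M g = 1 from (QuotientGroup.eq_one_iff g).2 this, orderOf_one] at hy
    exact hr.ne_one hy.symm

/-- A minimal normal subgroup of a solvable group is an abelian group of prime power order. -/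
theorem minimal_normal_solvable [Group.IsSolvable G] {N : Subgroup G} [N.Normal] (hN : N ≠ ⊥)
    (hmin : ∀ K : Subgroup G, K.Normal → K ≤ N → K = ⊥ ∨ K = N) :
    (∀ x ∈ N, ∀ y ∈ N, x * y = y * x) ∧ ∃ q : ℕ, q.Prime ∧ IsPGroup q N := by
  haveI : Nontrivial N := (Subgroup.nontrivial_iff_ne_bot N).2 hN
  have hab : ⁅N, N⁆ = ⊥ := by
    rcases hmin ⁅N, N⁆ inferInstance (Subgroup.commutator_le_left N N) with h | h
    · exact h
    · exfalso
      refine (IsSolvable.commutator_lt_top_of_nontrivial N).ne ?_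
      refine Subgroup.map_injective N.subtype_injective ?_
      rw [_root_.commutator, Subgroup.map_commutator, ← MonoidHom.range_eq_map,
        Subgroup.range_subtype, h]
  have hcomm : ∀ x ∈ N, ∀ y ∈ N, x * y = y * x := fun x hx y hy => by
    have h1 := Subgroup.commutator_mem_commutator hx hy
    rw [hab, Subgroup.mem_bot] at h1
    exact commutatorElement_eq_one_iff_mul_comm.1 h1
  obtain ⟨q, hq, hqd⟩ := Nat.exists_prime_and_dvd (n := Nat.card N) Finite.one_lt_card.ne'
  haveI := Fact.mk hq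
  obtain ⟨y, hy⟩ := exists_prime_orderOf_dvd_card' q hqd
  let E : Subgroup G :=
    { carrier := {x | x ∈ N ∧ x ^ q = 1}
      one_mem' := ⟨N.one_mem, one_pow _⟩
      mul_mem' := fun {a b} ha hb => ⟨N.mul_mem ha.1 hb.1, by
        rw [(show Commute a b from hcomm a ha.1 b hb.1).mul_pow, ha.2, hb.2, one_mul]⟩
      inv_mem' := fun {a} ha => ⟨N.inv_mem ha.1, by rw [inv_pow, ha.2, inv_one]⟩ }
  have hEn : E.Normal := ⟨fun x hx g =>
    ⟨(inferInstance : N.Normal).conj_mem x hx.1 g, by rw [conj_pow, hx.2, mul_one, mul_inv_cancel]⟩⟩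
  refine ⟨hcomm, q, hq, fun z => ⟨1, ?_⟩⟩
  rcases hmin E hEn (fun x hx => hx.1) with h | h
  · exfalso
    have hyE : (y : G) ∈ E := ⟨y.2, by rw [← SubgroupClass.coe_pow, ← hy, pow_orderOf_eq_one]; rfl⟩
    rw [h, Subgroup.mem_bot] at hyE
    rw [OneMemClass.coe_eq_one.1 hyE, orderOf_one] at hy
    exact hq.ne_one hy.symm
  · have hzE : (z : G) ∈ E := by rw [h]; exact z.2
    exact Subtype.ext (by rw [SubgroupClass.coe_pow, pow_one]; exact hzE.2)

/-- No proper subgroup has index dividing a good degree, when every normal subgroup of prime index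
has index `p`. -/
theorem eq_top_of_index_dvd [Group.IsSolvable G] {p n : ℕ} (hp : p.Prime) (hgood : GoodDeg p n)
    (hM : ∀ M : Subgroup G, M.Normal → M.index.Prime → M.index = p) (H : Subgroup G)
    (hH : H.index ∣ n) : H = ⊤ := by
  classical
  by_contra hne
  haveI := Fact.mk hp
  obtain ⟨H', hco, hle⟩ := (eq_top_or_exists_le_coatom H).resolve_left hne
  set C := H'.normalCore with hC
  have hsurj := QuotientGroup.mk'_surjective C
  set U := H'.map (QuotientGroup.mk' C) with hUdef
  have hUc : U.comap (QuotientGroup.mk' C) = H' := by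
    rw [hUdef, Subgroup.comap_map_eq, QuotientGroup.ker_mk', sup_eq_left]
    exact Subgroup.normalCore_le H'
  have hUco : IsCoatom U := ⟨fun h => hco.1 (by rw [← hUc, h, Subgroup.comap_top]),
    fun V hV => by
      have h1 : H' < V.comap (QuotientGroup.mk' C) :=
        hUc.symm.trans_lt ((Subgroup.comap_lt_comap_of_surjective hsurj).2 hV)
      exact Subgroup.comap_injective hsurj ((hco.2 _ h1).trans (Subgroup.comap_top _).symm)⟩
  have hUcore : U.normalCore = ⊥ := by
    rw [← le_bot_iff, ← QuotientGroup.map_mk'_self C, ← Subgroup.map_comap_eq_self_of_surjective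
      hsurj U.normalCore]
    exact Subgroup.map_mono (Subgroup.normal_le_normalCore.2
      ((Subgroup.comap_mono (Subgroup.normalCore_le U)).trans hUc.le))
  have hUidx : U.index ∣ n := by
    refine dvd_trans ?_ hH
    rw [← Subgroup.index_comap_of_surjective U hsurj, hUc]
    exact Subgroup.index_dvd_of_le hle
  have hCtop : C ≠ ⊤ := fun h => hco.1 (top_le_iff.1 (h ▸ Subgroup.normalCore_le H'))
  haveI : Nontrivial (G ⧸ C) := QuotientGroup.nontrivial_iff.2 hCtop
  have hpQ : p ∣ Nat.card (G ⧸ C) := by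
    obtain ⟨M, hMn, hCM, hMi⟩ := exists_normal_prime_index C hCtop
    rw [← Subgroup.index_eq_card, ← hM M hMn hMi]
    exact Subgroup.index_dvd_of_le hCM
  obtain ⟨N, -, hNn, hNne, hNmin⟩ := SolvStruct.exists_min_normal_le (⊤ : Subgroup (G ⧸ C))
    inferInstance top_ne_bot
  haveI := hNn
  obtain ⟨hNab, q, hq, hNq⟩ := minimal_normal_solvable hNne hNmin
  have hcen := SolvStruct.centralizer_inf_corefree_eq_bot hUco hUcore hNne
  have hNU : Disjoint N U := by
    rw [disjoint_iff, ← le_bot_iff, ← hcen]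
    exact inf_le_inf_right _ fun x hx => Subgroup.mem_centralizer_iff.2 fun y hy => hNab y hy x hx
  have hcompl : N.IsComplement' U := Subgroup.isComplement'_of_disjoint_and_mul_eq_univ hNU (by
    rw [← Subgroup.normal_mul, sup_comm,
      SolvStruct.sup_normal_eq_top_of_corefree hUco hUcore hNne, Subgroup.coe_top])
  have hidx : U.index = Nat.card N := hcompl.index_eq_card
  haveI := Fact.mk hq
  obtain ⟨b, hb⟩ := hNq.exists_card_eq
  have hqn : q ^ b ∣ n := hb ▸ hidx ▸ hUidx
  have hb0 : b ≠ 0 := fun h => hNne (Subgroup.eq_bot_of_card_eq N (by rw [hb, h, pow_zero]))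
  have hqp : q ≠ p := fun h => hgood.not_dvd hp (h ▸ (dvd_pow_self q hb0).trans hqn)
  have hpU : p ∣ Nat.card U := by
    rw [← hcompl.card_mul, hb] at hpQ
    rcases hp.dvd_mul.1 hpQ with h | h
    · exact absurd ((Nat.prime_dvd_prime_iff_eq hp hq).1 (hp.dvd_of_dvd_pow h)) (Ne.symm hqp)
    · exact h
  obtain ⟨⟨y, hyU⟩, hy⟩ := exists_prime_orderOf_dvd_card' p hpU
  rw [Subgroup.orderOf_mk] at hy
  have hyp : IsPGroup p (Subgroup.zpowers y) :=
    IsPGroup.of_card (n := 1) (by rw [pow_one, Nat.card_zpowers, hy])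
  letI : MulAction (Subgroup.zpowers y) N := MulAction.compHom N
    ((MulAut.conjNormal (H := N)).comp (Subgroup.zpowers y).subtype)
  have hfix := hyp.card_modEq_card_fixedPoints N
  set Cy := (Subgroup.centralizer ({y} : Set (G ⧸ C))).subgroupOf N with hCy
  have hfc : Nat.card (MulAction.fixedPoints (Subgroup.zpowers y) N) = Nat.card Cy := by
    refine Nat.card_congr (Equiv.subtypeEquivRight fun x => ?_)
    rw [MulAction.mem_fixedPoints, hCy, Subgroup.mem_subgroupOf,
      Subgroup.mem_centralizer_singleton_iff]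
    constructor
    · intro h
      have h1 : y * (x : G ⧸ C) * y⁻¹ = x :=
        congrArg Subtype.val (h ⟨y, Subgroup.mem_zpowers y⟩)
      calc (x : G ⧸ C) * y = y * (x : G ⧸ C) * y⁻¹ * y := by rw [h1]
        _ = y * x := by group
    · rintro h ⟨z, hz⟩
      obtain ⟨i, rfl⟩ := Subgroup.mem_zpowers_iff.1 hz
      refine Subtype.ext ?_
      show y ^ i * (x : G ⧸ C) * (y ^ i)⁻¹ = x
      have h1 : Commute y (x : G ⧸ C) := h.symm
      rw [(h1.zpow_left i).eq, mul_inv_cancel_right]
  rw [hfc, hb] at hfix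
  obtain ⟨c, hcb, hc⟩ := (Nat.dvd_prime_pow hq).1 (hb ▸ Subgroup.card_subgroup_dvd_card Cy)
  have hcne : c ≠ b := fun h => by
    have htop : Cy = ⊤ := Subgroup.eq_top_of_card_eq Cy (by rw [hc, hb, h])
    have hmem : y ∈ Subgroup.centralizer (N : Set (G ⧸ C)) ⊓ U :=
      ⟨Subgroup.mem_centralizer_iff.2 fun x hx => Subgroup.mem_centralizer_singleton_iff.1
        (htop ▸ Subgroup.mem_top (⟨x, hx⟩ : N) : (⟨x, hx⟩ : N) ∈ Cy), hyU⟩
    rw [hcen, Subgroup.mem_bot] at hmem
    rw [hmem, orderOf_one] at hy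
    exact hp.ne_one hy.symm
  rw [hc] at hfix
  refine hgood (q ^ (b - c)) (hq.isPrimePow.pow (by omega))
    ((pow_dvd_pow q (Nat.sub_le b c)).trans hqn) (Or.inr (Or.inr ?_))
  have h1 : q ^ (b - c) ≡ 1 [MOD p] := by
    have h2 : q ^ c * q ^ (b - c) ≡ q ^ c * 1 [MOD p] := by
      rw [mul_one, ← pow_add, Nat.add_sub_cancel' hcb]; exact hfix
    refine Nat.ModEq.cancel_left_of_coprime ?_ h2
    exact Nat.Coprime.pow_right c ((Nat.coprime_primes hp hq).2 (Ne.symm hqp))
  exact_mod_cast (Int.natCast_modEq_iff.2 h1)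

/-- The degree of a constituent on a normal subgroup divides the degree; with no proper subgroup
of index dividing the degree, the constituent is unique. -/
theorem constituent_data {χ : G → ℂ} (hχ : IsIrrCharacter G χ) (N : Subgroup G) [N.Normal]
    [Fintype G] [Fintype N] (φ : IrrCharacter N)
    (hφ : classInner (fun x : N => χ x) (φ : N → ℂ) ≠ 0) :
    charDegree (φ : N → ℂ) ∣ charDegree χ ∧
      ((∀ H : Subgroup G, H.index ∣ charDegree χ → H = ⊤) →
        (∀ x : G, CharInd.conjChar N x (φ : N → ℂ) = φ) ∧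
          ∃ e : ℕ, 0 < e ∧ ∀ z : N, χ z = (e : ℂ) * (φ : N → ℂ) z) := by
  classical
  obtain ⟨e, he, -, hres, hdeg⟩ := CharExt.clifford_data N hχ φ.2 hφ
  have hn : charDegree χ = e * (CharExt.inertia N (φ : N → ℂ)).index * charDegree (φ : N → ℂ) := by
    rw [apply_one (Char.isCharacter_of_irr hχ), apply_one (Char.isCharacter_of_irr φ.2)] at hdeg
    exact_mod_cast hdeg
  refine ⟨hn ▸ dvd_mul_left _ _, fun hsmall => ?_⟩
  have htop : CharExt.inertia N (φ : N → ℂ) = ⊤ := by
    refine hsmall _ ?_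
    rw [hn]
    exact (dvd_mul_left _ e).trans (dvd_mul_right _ _)
  refine ⟨fun x => CharExt.mem_inertia.1 (htop ▸ Subgroup.mem_top x), e, he, fun z => ?_⟩
  have h := congrFun hres z
  rw [CharExt.conjClass_eq_singleton N htop] at h
  simpa using h

/-- The square of an integer value of the extension of a fully ramified character. -/
theorem trace_identity {H : Type u} [Group H] [Fintype H] {n : ℕ}
    (σ : Representation ℂ H (Fin n → ℂ)) (Q : Subgroup H) [Fintype Q]
    (hσ : Representation.IsIrreducible (σ.comp Q.subtype : Representation ℂ Q (Fin n → ℂ)))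
    (x : H) :
    (n : ℂ) * ∑ g : Q, σ.character ((g : H) * x * (g : H)⁻¹ * x⁻¹) =
      (Nat.card Q : ℂ) * σ.character x * σ.character x⁻¹ := by
  haveI := hσ
  set T : (Fin n → ℂ) →ₗ[ℂ] (Fin n → ℂ) := ∑ g : Q, σ ((g : H) * x * (g : H)⁻¹) with hT
  obtain ⟨c, hc⟩ := CharExt.exists_scalar_of_commute
    (σ.comp Q.subtype : Representation ℂ Q (Fin n → ℂ)) T fun y => by
    change T * σ (y : H) = σ (y : H) * T
    rw [hT, Finset.sum_mul, Finset.mul_sum]
    simp only [← map_mul]
    exact Fintype.sum_equiv (Equiv.mulLeft y⁻¹) _ _ fun g => congrArg σ (by simp [mul_assoc])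
  have h1 : c * (n : ℂ) = (Nat.card Q : ℂ) * σ.character x := by
    calc c * (n : ℂ) = LinearMap.trace ℂ _ T := by simp [hc]
      _ = ∑ g : Q, σ.character ((g : H) * x * (g : H)⁻¹) := by
          simp [hT, map_sum, Representation.character]
      _ = _ := by
          rw [Finset.sum_congr rfl fun (g : Q) _ => σ.char_conj x (g : H)]
          simp [Nat.card_eq_fintype_card]
  have h2 : ∑ g : Q, σ.character ((g : H) * x * (g : H)⁻¹ * x⁻¹) = c * σ.character x⁻¹ := by
    calc ∑ g : Q, σ.character ((g : H) * x * (g : H)⁻¹ * x⁻¹) =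
          LinearMap.trace ℂ _ (T * σ x⁻¹) := by
          simp [hT, Finset.sum_mul, map_sum, Representation.character]
      _ = _ := by simp [hc, Representation.character]
  rw [h2]
  linear_combination σ.character x⁻¹ * h1

/-- The trace of an operator with `M ^ p = 1` whose powers have constant trace is an integer
congruent to the dimension. -/
theorem int_value_of_const {p : ℕ} (hp : p.Prime) {d : ℕ} {ε : Fin d → ℂ}
    (hε : ∀ i, ε i ^ p = 1) {z : ℂ} (hz : ∀ j : ℕ, 1 ≤ j → j < p → ∑ i, ε i ^ j = z) :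
    ∃ k : ℤ, z = k ∧ (p : ℤ) ∣ (d : ℤ) - k := by
  classical
  haveI : NeZero p := ⟨hp.ne_zero⟩
  haveI := Fact.mk hp
  have hmem : (fun a : (ZMod p)ˣ => ∑ i, ε i ^ (a : ZMod p).val) ∈ GalAvg.cycFun p := by
    have h : (∑ i : Fin d, fun a : (ZMod p)ˣ => ε i ^ (a : ZMod p).val) ∈ GalAvg.cycFun p :=
      sum_mem fun i _ => GalAvg.root_mem (hε i)
    convert h using 1
    funext a
    simp [Finset.sum_apply]
  obtain ⟨k, hk⟩ := GalAvg.exists_int_of_const hmem (c := z) fun a =>
    hz _ (Nat.one_le_iff_ne_zero.2 fun h => a.ne_zero ((ZMod.val_eq_zero _).1 h)) (ZMod.val_lt _)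
  refine ⟨k, hk, ?_⟩
  have hgeom : ∀ i, ∑ j ∈ Finset.range p, ε i ^ j = if ε i = 1 then (p : ℂ) else 0 := fun i => by
    split_ifs with h
    · simp [h]
    · rw [geom_sum_eq h, hε i, sub_self, zero_div]
  set m₀ := (Finset.univ.filter fun i => ε i = 1).card with hm₀
  have h1 : ∑ j ∈ Finset.range p, ∑ i, ε i ^ j = (d : ℂ) + ((p - 1 : ℕ) : ℂ) * k := by
    rw [show p = (p - 1) + 1 by have := hp.two_le; omega, Finset.sum_range_succ',
      Finset.sum_congr rfl fun j hj => (hz (j + 1) (by omega) (by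
        have := Finset.mem_range.1 hj; omega)).trans hk]
    simp [mul_comm, add_comm]
  rw [Finset.sum_comm, Finset.sum_congr rfl fun i _ => hgeom i, Finset.sum_ite, Finset.sum_const,
    Finset.sum_const_zero, add_zero, nsmul_eq_mul, ← hm₀] at h1
  have h2 : (m₀ : ℤ) * p = d + ((p - 1 : ℕ) : ℤ) * k := by exact_mod_cast h1
  rw [Nat.cast_sub hp.one_le, Nat.cast_one] at h2
  exact ⟨(m₀ : ℤ) - k, by linear_combination (-1 : ℤ) * h2⟩

end Cfsg.Agent.LinearBound
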